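import Mathlib
import Cfsg.Agent.Lib.Design.Count

/-!
Disjointness counts in a Steiner system S(3,6,22).
-/

set_option autoImplicit false
set_option linter.unusedSectionVars false

namespace H17

open Finset Cfsg

variable {α : Type*} [Fintype α] [DecidableEq α]

/-- The blocks through `s` disjoint from `b`. -/
noncomputable def disj (B : Set (Finset α)) (s b : Finset α) : Finset (Finset α) :=
  (thru B s).filter fun d => Disjoint d b

theorem mem_disj {B : Set (Finset α)} {s b d : Finset α} :
    d ∈ disj B s b ↔ d ∈ B ∧ s ⊆ d ∧ Disjoint d b := by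
  simp [disj, mem_thru, and_assoc]

theorem card_eq_sum_nmeet (D : Finset (Finset α)) (X : Finset α) (m : ℕ)
    (hD : ∀ c ∈ D, (c ∩ X).card < m) : D.card = ∑ i ∈ range m, nmeet D X i := by
  have := sum_nmeet D X m (fun _ => 1) hD
  simpa using this

variable {B : Set (Finset α)} (hα : Fintype.card α = 22) (hB : IsSteinerSystem 3 6 B)
include hα hB

theorem w22_disj_card {b : Finset α} (hb : b ∈ B) : (disj B ∅ b).card = 16 := by
  obtain ⟨h0, -⟩ := w22_nmeet hα hB hb
  rw [← h0, nmeet]
  congr 1
  ext c
  simp only [mem_disj, mem_filter, mem_erase, mem_thru_empty, card_eq_zero,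
    ← disjoint_iff_inter_eq_empty, empty_subset, true_and]
  constructor
  · rintro ⟨hc, hd⟩
    refine ⟨⟨?_, hc⟩, hd⟩
    rintro rfl
    have := hB.1 c hc
    rw [disjoint_self, Finset.bot_eq_empty] at hd
    simp [hd] at this
  · rintro ⟨⟨-, hc⟩, hd⟩
    exact ⟨hc, hd⟩

theorem w22_disj_point {b : Finset α} (hb : b ∈ B) {p : α} (hp : p ∉ b) :
    (disj B {p} b).card = 6 := by
  have hlt : ∀ c ∈ thru B {p}, (c ∩ b).card < 3 := by
    intro c hc
    rw [mem_thru, singleton_subset_iff] at hc
    exact steiner_inter_lt hB hc.1 hb (fun h => hp (h ▸ hc.2))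
  have h1 := moment (B := B) (s := {p}) (X := b) (disjoint_singleton_left.mpr hp) 1 5
    (fun u hu => w22_lam2 hα hB u (by simpa using hu))
  rw [sum_nmeet _ b 3 (fun i => Nat.choose i 1) hlt, hB.1 b hb] at h1
  have h0 := card_eq_sum_nmeet _ b 3 hlt
  rw [w22_lam1 hα hB _ (card_singleton p)] at h0
  have hz : nmeet (thru B {p}) b 1 = 0 := by
    rw [nmeet, card_eq_zero, filter_eq_empty_iff]
    intro c hc
    rw [mem_thru] at hc
    have := w22_even hα hB hc.1 hb
    intro h; rw [h] at this; exact absurd this (by decide)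
  have he : nmeet (thru B {p}) b 0 = (disj B {p} b).card := by
    rw [nmeet, disj]; congr 1; ext c
    simp only [mem_filter, card_eq_zero, ← disjoint_iff_inter_eq_empty]
  simp only [sum_range_succ, range_zero, sum_empty, Nat.choose] at h0 h1
  omega

theorem w22_sum_disj {b : Finset α} (hb : b ∈ B) (c : Finset α) :
    ∑ d ∈ disj B ∅ b, (d ∩ c).card = (c \ b).card * 6 := by
  rw [← Finset.sum_card_inter (s := c \ b) (B := disj B ∅ b) (n := 6)]
  · refine sum_congr rfl fun d hd => ?_
    rw [mem_disj] at hd
    congr 1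
    ext x
    simp only [mem_inter, mem_sdiff]
    have : x ∈ d → x ∉ b := fun h => disjoint_left.mp hd.2.2 h
    tauto
  · intro x hx
    rw [← w22_disj_point hα hB hb (mem_sdiff.mp hx).2]
    congr 1
    ext d
    simp only [mem_filter, mem_disj, empty_subset, true_and, singleton_subset_iff]
    tauto

theorem w22_common {b c : Finset α} (hb : b ∈ B) (hc : c ∈ B) (hbc : b ≠ c) :
    ((disj B ∅ b).filter fun d => Disjoint d c).card = if Disjoint b c then 0 else 4 := by
  have hlt : ∀ d ∈ (disj B ∅ b).erase c, (d ∩ c).card < 3 := by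
    intro d hd
    rw [mem_erase, mem_disj] at hd
    exact steiner_inter_lt hB hd.2.1 hc hd.1
  have hz : nmeet ((disj B ∅ b).erase c) c 1 = 0 := by
    rw [nmeet, card_eq_zero, filter_eq_empty_iff]
    intro d hd
    rw [mem_erase, mem_disj] at hd
    have := w22_even hα hB hd.2.1 hc
    intro h; rw [h] at this; exact absurd this (by decide)
  have he : nmeet ((disj B ∅ b).erase c) c 0 =
      ((disj B ∅ b).filter fun d => Disjoint d c).card := by
    rw [nmeet]; congr 1; ext d
    simp only [mem_filter, card_eq_zero, ← disjoint_iff_inter_eq_empty, mem_erase]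
    constructor
    · tauto
    · rintro ⟨h1, h2⟩
      refine ⟨⟨?_, h1⟩, h2⟩
      rintro rfl
      have := hB.1 d hc
      rw [disjoint_self, Finset.bot_eq_empty] at h2
      simp [h2] at this
  have h0 := card_eq_sum_nmeet _ c 3 hlt
  have h1 := sum_nmeet _ c 3 (fun i => i) hlt
  have hs := w22_sum_disj hα hB hb c
  have h16 := w22_disj_card hα hB hb
  have hcb := card_sdiff_add_card_inter c b
  rw [hB.1 c hc] at hcb
  simp only [sum_range_succ, range_zero, sum_empty] at h0 h1
  split_ifs with hd
  · have hcm : c ∈ disj B ∅ b := mem_disj.mpr ⟨hc, empty_subset _, hd.symm⟩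
    rw [← Finset.sum_erase_add _ _ hcm, inter_self, hB.1 c hc] at hs
    rw [card_erase_of_mem hcm] at h0
    have : (c ∩ b).card = 0 := by
      rw [card_eq_zero, ← disjoint_iff_inter_eq_empty]; exact hd.symm
    omega
  · have hcm : c ∉ disj B ∅ b := fun h => hd (mem_disj.mp h).2.2.symm
    rw [erase_eq_of_notMem hcm] at h0 h1 he hz
    have h2 : (c ∩ b).card = 2 := by
      rcases w22_inter hα hB hc hb hbc.symm with h | h
      · rw [card_eq_zero, ← disjoint_iff_inter_eq_empty] at h; exact absurd h.symm hd
      · exact h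
    omega

end H17
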