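import Mathlib
import Cfsg.Agent.Base
import Cfsg.Agent.Lib.Design.W22Count

/-!
The point-block graph of an S(3,6,22) is strongly regular with parameters (100,22,0,6).
-/

set_option autoImplicit false
set_option linter.unusedSectionVars false

namespace H17

open Finset Cfsg

section Adj
variable {α : Type*} {B : Set (Finset α)}

theorem pb_nn : ¬ (pointBlockGraph B).Adj none none := by simp
theorem pb_np (a : α) : (pointBlockGraph B).Adj none (some (Sum.inl a)) := by
  simp [pointBlockGraph, SimpleGraph.fromRel_adj, pointBlockRel]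
theorem pb_pn (a : α) : (pointBlockGraph B).Adj (some (Sum.inl a)) none := (pb_np a).symm
theorem pb_nb (b : B) : ¬ (pointBlockGraph B).Adj none (some (Sum.inr b)) := by
  simp [pointBlockGraph, SimpleGraph.fromRel_adj, pointBlockRel]
theorem pb_bn (b : B) : ¬ (pointBlockGraph B).Adj (some (Sum.inr b)) none :=
  fun h => pb_nb b h.symm
theorem pb_pp (a a' : α) : ¬ (pointBlockGraph B).Adj (some (Sum.inl a)) (some (Sum.inl a')) := by
  simp [pointBlockGraph, SimpleGraph.fromRel_adj, pointBlockRel]
theorem pb_pb (a : α) (b : B) :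
    (pointBlockGraph B).Adj (some (Sum.inl a)) (some (Sum.inr b)) ↔ a ∈ (b : Finset α) := by
  simp [pointBlockGraph, SimpleGraph.fromRel_adj, pointBlockRel]
theorem pb_bp (a : α) (b : B) :
    (pointBlockGraph B).Adj (some (Sum.inr b)) (some (Sum.inl a)) ↔ a ∈ (b : Finset α) := by
  rw [SimpleGraph.adj_comm, pb_pb]
theorem pb_bb (hne : ∀ b ∈ B, b ≠ ∅) (b c : B) :
    (pointBlockGraph B).Adj (some (Sum.inr b)) (some (Sum.inr c)) ↔
      Disjoint (b : Finset α) c := by
  rw [pointBlockGraph, SimpleGraph.fromRel_adj]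
  constructor
  · rintro ⟨-, h | h⟩
    exacts [h, Disjoint.symm h]
  · intro h
    refine ⟨?_, Or.inl h⟩
    intro e
    have : b = c := by simpa using e
    subst this
    rw [disjoint_self, Finset.bot_eq_empty] at h
    exact hne b b.2 h

open Classical in
theorem pb_card_set [Fintype α] (S : Set (Option (α ⊕ B))) [Fintype S] (P : Finset α)
    (D : Finset (Finset α)) (hP : ∀ a, a ∈ P ↔ some (Sum.inl a) ∈ S)
    (hD : ∀ d, d ∈ D ↔ ∃ hd : d ∈ B, some (Sum.inr (⟨d, hd⟩ : B)) ∈ S) :
    Fintype.card S = (if none ∈ S then 1 else 0) + P.card + D.card := by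
  classical
  have : Fintype.card S = ∑ x : Option (α ⊕ B), if x ∈ S then 1 else 0 := by
    rw [sum_boole, Nat.cast_id, ← Set.toFinset_card]
    congr 1; ext x; simp
  rw [this, Fintype.sum_option, Fintype.sum_sum_type, sum_boole, sum_boole, Nat.cast_id,
    Nat.cast_id, add_assoc]
  congr 2
  · congr 1; ext a; simp [hP]
  · rw [← card_image_of_injective _ Subtype.val_injective]
    congr 1; ext d; simp [hD]

end Adj

variable {α : Type*} [Fintype α] {B : Set (Finset α)}

theorem pb_srg (hα : Fintype.card α = 22) (hB : IsSteinerSystem 3 6 B) [Fintype B]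
    [DecidableRel (pointBlockGraph B).Adj] : (pointBlockGraph B).IsSRGWith 100 22 0 6 := by
  classical
  have hne : ∀ b ∈ B, b ≠ ∅ := by
    rintro b hb rfl
    have := hB.1 _ hb
    simp at this
  have hcard : Fintype.card B = 77 := by
    rw [← Nat.card_eq_fintype_card, Nat.card_coe_set_eq, ncard_eq_thru]
    exact w22_lam0 hα hB _ rfl
  refine ⟨?_, ?_, ?_, ?_⟩
  · simp [hα, hcard]
  · intro v
    rw [← SimpleGraph.card_neighborSet_eq_degree]
    rcases v with _ | a | b
    · rw [pb_card_set _ univ ∅] <;> simp [pb_np, pb_nb, hα]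
    · rw [pb_card_set _ ∅ (thru B {a})] <;>
        simp [pb_pn, pb_pp, pb_pb, mem_thru, w22_lam1 hα hB]
    · rw [pb_card_set _ b (disj B ∅ b)] <;>
        simp [pb_bn, pb_bp, pb_bb hne, mem_disj, w22_disj_card hα hB b.2, hB.1 b b.2,
          disjoint_comm]
  · have key : ∀ (a : α) (b : B), a ∈ (b : Finset α) → ∀ d ∈ B, a ∈ d → ¬ Disjoint (b : Finset α) d :=
      fun a b hab d _ had h => disjoint_left.mp h hab had
    intro v w h
    rcases v with _ | a | b <;> rcases w with _ | a' | c
    · exact absurd h pb_nn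
    · rw [pb_card_set _ ∅ ∅] <;> simp [SimpleGraph.mem_commonNeighbors, pb_pp, pb_nb]
    · exact absurd h (pb_nb _)
    · rw [pb_card_set _ ∅ ∅] <;> simp [SimpleGraph.mem_commonNeighbors, pb_pp, pb_nb]
    · exact absurd h (pb_pp _ _)
    · rw [pb_pb] at h
      rw [pb_card_set _ ∅ ∅] <;>
        simp [SimpleGraph.mem_commonNeighbors, pb_pp, pb_bn, pb_pb, pb_bb hne]
      exact fun d h1 hd => key a c h d hd h1
    · exact absurd h (pb_bn _)
    · rw [pb_bp] at h
      rw [pb_card_set _ ∅ ∅] <;>
        simp [SimpleGraph.mem_commonNeighbors, pb_pp, pb_bn, pb_pb, pb_bb hne]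
      exact fun d h1 hd h2 => key a' b h d hd h2 h1
    · have hne' : (b : Finset α) ≠ c := fun e => h.ne (by rw [Subtype.ext e])
      rw [pb_bb hne] at h
      have h0 := w22_common hα hB b.2 c.2 hne'
      rw [if_pos h] at h0
      rw [pb_card_set _ ∅ ((disj B ∅ b).filter fun d => Disjoint d c), h0] <;>
        simp [SimpleGraph.mem_commonNeighbors, pb_bn, pb_bp, pb_bb hne, mem_disj, and_assoc,
          disjoint_comm]
      · exact fun a h1 h2 => disjoint_left.mp h h1 h2
      · intro d; tauto
  · intro v w hvw h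
    rcases v with _ | a | b <;> rcases w with _ | a' | c
    · exact absurd rfl hvw
    · exact absurd (pb_np _) h
    · rw [pb_card_set _ c ∅] <;>
        simp [SimpleGraph.mem_commonNeighbors, pb_np, pb_bp, pb_nb, hB.1 c c.2]
    · exact absurd (pb_pn _) h
    · have : a ≠ a' := fun e => hvw (by rw [e])
      rw [pb_card_set _ ∅ (thru B {a, a'})] <;>
        simp [SimpleGraph.mem_commonNeighbors, pb_pn, pb_pp, pb_pb, mem_thru,
          w22_lam2 hα hB _ (card_pair this), insert_subset_iff]
      intro d; tauto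
    · rw [pb_pb] at h
      rw [pb_card_set _ ∅ (disj B {a} c)] <;>
        simp [SimpleGraph.mem_commonNeighbors, pb_bn, pb_pp, pb_pb, pb_bb hne, mem_disj,
          w22_disj_point hα hB c.2 h, disjoint_comm]
      intro d; tauto
    · rw [pb_card_set _ b ∅] <;>
        simp [SimpleGraph.mem_commonNeighbors, pb_np, pb_bp, pb_nb, hB.1 b b.2]
    · rw [pb_bp] at h
      rw [pb_card_set _ ∅ (disj B {a'} b)] <;>
        simp [SimpleGraph.mem_commonNeighbors, pb_bn, pb_pp, pb_pb, pb_bb hne, mem_disj,
          w22_disj_point hα hB b.2 h, disjoint_comm, and_comm]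
      intro d; tauto
    · have hne' : (b : Finset α) ≠ c := fun e => hvw (by rw [Subtype.ext e])
      rw [pb_bb hne] at h
      have h0 := w22_common hα hB b.2 c.2 hne'
      rw [if_neg h] at h0
      have h2 : ((b : Finset α) ∩ c).card = 2 := by
        rcases w22_inter hα hB b.2 c.2 hne' with h' | h'
        · rw [card_eq_zero, ← disjoint_iff_inter_eq_empty] at h'; exact absurd h' h
        · exact h'
      rw [pb_card_set _ ((b : Finset α) ∩ c) ((disj B ∅ b).filter fun d => Disjoint d c), h0, h2] <;>
        simp [SimpleGraph.mem_commonNeighbors, pb_bn, pb_bp, pb_bb hne, mem_disj, and_assoc,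
          disjoint_comm]
      intro d; tauto

end H17
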