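import Mathlib
import Cfsg.Agent.Base
import Cfsg.Agent.Lib.Design.PBGraph

/-!
Counting in strongly regular graphs; reconstruction of S(3,6,22) from a packing.
-/

set_option autoImplicit false
set_option linter.unusedSectionVars false

namespace H17

open Finset Cfsg

section General

variable {V : Type*} [Fintype V] [DecidableEq V] {G : SimpleGraph V} [DecidableRel G.Adj]
  {n k l m : ℕ}

/-- the adjacency operator -/
def adjF (G : SimpleGraph V) [DecidableRel G.Adj] (f : V → ℤ) (u : V) : ℤ :=
  ∑ w, if G.Adj u w then f w else 0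

/-- indicator function of a set of vertices -/
def ind (S : Finset V) (u : V) : ℤ := if u ∈ S then 1 else 0

/-- number of neighbours in a set of vertices -/
def dg (G : SimpleGraph V) [DecidableRel G.Adj] (S : Finset V) (u : V) : ℕ :=
  (S.filter fun w => G.Adj u w).card

/-- common neighbours -/
def cn (G : SimpleGraph V) [DecidableRel G.Adj] (x y : V) : Finset V :=
  univ.filter fun w => G.Adj x w ∧ G.Adj y w

theorem mem_cn {x y w : V} : w ∈ cn G x y ↔ G.Adj x w ∧ G.Adj y w := by simp [cn]

theorem ind_of_mem {S : Finset V} {u : V} (h : u ∈ S) : ind S u = 1 := if_pos h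
theorem ind_of_not_mem {S : Finset V} {u : V} (h : u ∉ S) : ind S u = 0 := if_neg h

theorem sum_ind_mul (S : Finset V) (f : V → ℤ) : ∑ u, ind S u * f u = ∑ u ∈ S, f u := by
  simp [ind, sum_ite_mem]

theorem sum_ind (S : Finset V) : ∑ u, ind S u = S.card := by
  simp [ind]

theorem adjF_ind (S : Finset V) (u : V) : adjF G (ind S) u = dg G S u := by
  rw [adjF, dg, card_filter, Nat.cast_sum, ← sum_ind_mul S]
  refine sum_congr rfl fun w _ => ?_
  split_ifs <;> simp

theorem adjF_lin (f g : V → ℤ) (a b : ℤ) (u : V) :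
    adjF G (fun w => a * f w + b * g w) u = a * adjF G f u + b * adjF G g u := by
  simp only [adjF, mul_sum, ← sum_add_distrib]
  refine sum_congr rfl fun w _ => ?_
  split_ifs <;> simp

theorem adjF_lin3 (f g h : V → ℤ) (a b c : ℤ) (u : V) :
    adjF G (fun w => a * f w + b * g w + c * h w) u =
      a * adjF G f u + b * adjF G g u + c * adjF G h u := by
  simp only [adjF, mul_sum, ← sum_add_distrib]
  refine sum_congr rfl fun w _ => ?_
  split_ifs <;> simp

theorem sum_mul_adjF (f g : V → ℤ) : ∑ u, f u * adjF G g u = ∑ u, adjF G f u * g u := by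
  simp only [adjF, mul_sum, sum_mul]
  rw [sum_comm]
  refine sum_congr rfl fun u _ => sum_congr rfl fun w _ => ?_
  by_cases h : G.Adj u w
  · simp [h, h.symm]
  · have h' : ¬G.Adj w u := fun h' => h h'.symm
    simp [h, h']

theorem dg_eq_zero {S : Finset V} {u : V} : dg G S u = 0 ↔ ∀ w ∈ S, ¬G.Adj u w := by
  simp [dg]

theorem dg_le (S : Finset V) (u : V) : dg G S u ≤ S.card := card_filter_le _ _

theorem dg_eq_card {S : Finset V} {u : V} (h : ∀ w ∈ S, G.Adj u w) : dg G S u = S.card := by
  rw [dg, filter_true_of_mem h]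

theorem dg_union {S T : Finset V} (h : Disjoint S T) (u : V) :
    dg G (S ∪ T) u = dg G S u + dg G T u := by
  rw [dg, filter_union, card_union_of_disjoint (disjoint_filter_filter h)]; rfl

theorem dg_pair {x y : V} (h : x ≠ y) (u : V) :
    dg G {x, y} u = (if G.Adj u x then 1 else 0) + if G.Adj u y then 1 else 0 := by
  rw [dg, card_filter, sum_pair h]

theorem sum_dg_comm (S T : Finset V) : ∑ u ∈ S, dg G T u = ∑ u ∈ T, dg G S u := by
  have := sum_mul_adjF (G := G) (ind S) (ind T)
  simp only [adjF_ind, sum_ind_mul, mul_comm _ (ind T _)] at this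
  exact_mod_cast this

theorem card_cn_eq (x y : V) : (cn G x y).card = Fintype.card (G.commonNeighbors x y) := by
  rw [Fintype.card_subtype]
  congr 1

theorem card_cn_self (hG : G.IsSRGWith n k l m) (x : V) : (cn G x x).card = k := by
  rw [← hG.regular x, ← SimpleGraph.card_neighborFinset_eq_degree]
  congr 1
  ext w; simp [mem_cn]

theorem card_cn_adj (hG : G.IsSRGWith n k l m) {x y : V} (h : G.Adj x y) :
    (cn G x y).card = l := by
  rw [card_cn_eq, hG.of_adj x y h]

theorem card_cn_nadj (hG : G.IsSRGWith n k l m) {x y : V} (hne : x ≠ y) (h : ¬G.Adj x y) :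
    (cn G x y).card = m := by
  rw [card_cn_eq, hG.of_not_adj hne h]

theorem no_triangle (hG : G.IsSRGWith n k 0 m) {x y z : V} (h : G.Adj x y) (h1 : G.Adj x z) :
    ¬G.Adj y z := fun h2 => by
  have := card_eq_zero.1 (card_cn_adj hG h)
  exact notMem_empty z (this ▸ mem_cn.2 ⟨h1, h2⟩)

theorem adjF_adjF (hG : G.IsSRGWith n k l m) (f : V → ℤ) (u : V) :
    adjF G (adjF G f) u = (k - m : ℤ) * f u + (l - m : ℤ) * adjF G f u + m * ∑ w, f w := by
  have h1 : adjF G (adjF G f) u = ∑ x, ((cn G u x).card : ℤ) * f x := by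
    simp only [adjF, cn, card_filter, Nat.cast_sum, sum_mul]
    rw [sum_comm]
    refine sum_congr rfl fun w _ => ?_
    by_cases h : G.Adj u w
    · rw [if_pos h]
      refine sum_congr rfl fun x _ => ?_
      by_cases h' : G.Adj w x
      · simp [h, h', h'.symm]
      · have h'' : ¬G.Adj x w := fun e => h' e.symm
        simp [h', h'']
    · simp [h]
  have h2 : (k - m : ℤ) * f u = ∑ x, if u = x then (k - m : ℤ) * f x else 0 := by simp
  rw [h1, h2, adjF, mul_sum, mul_sum, ← sum_add_distrib, ← sum_add_distrib]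
  refine sum_congr rfl fun x _ => ?_
  by_cases h : u = x
  · subst h
    rw [card_cn_self hG, if_pos rfl, if_neg G.irrefl]; ring
  · by_cases h' : G.Adj u x
    · rw [card_cn_adj hG h', if_neg h, if_pos h']; ring
    · rw [card_cn_nadj hG h h', if_neg h, if_neg h']; ring

theorem sum_adjF (hG : G.IsSRGWith n k l m) (f : V → ℤ) : ∑ u, adjF G f u = k * ∑ u, f u := by
  have := sum_mul_adjF (G := G) (ind univ) f
  simp only [adjF_ind, sum_ind_mul] at this
  rw [this, mul_sum]
  refine sum_congr rfl fun u _ => ?_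
  have e : (univ.filter fun w => G.Adj u w) = cn G u u := by ext w; simp [mem_cn]
  rw [dg, e, card_cn_self hG u]

theorem sum_adjF_sq (hG : G.IsSRGWith n k l m) (f : V → ℤ) :
    ∑ u, adjF G f u * adjF G f u = (k - m : ℤ) * ∑ u, f u * f u +
      (l - m : ℤ) * ∑ u, f u * adjF G f u + m * (∑ u, f u) ^ 2 := by
  rw [← sum_mul_adjF]
  simp only [adjF_adjF hG, mul_add, sum_add_distrib, mul_sum, sq, sum_mul]
  congr 1
  · congr 1 <;> exact sum_congr rfl fun _ _ => by ring
  · exact sum_congr rfl fun _ _ => sum_congr rfl fun _ _ => by ring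

/-- a vector whose defect has non-positive norm satisfies the eigenvalue equation. -/
theorem srg_eigen (hG : G.IsSRGWith n k l m) (f : V → ℤ) (θ c : ℤ)
    (h : (k - m + θ ^ 2) * ∑ u, f u * f u + (l - m - 2 * θ) * ∑ u, f u * adjF G f u +
      m * (∑ u, f u) ^ 2 + n * c ^ 2 - 2 * c * (k - θ) * ∑ u, f u ≤ 0) (u : V) :
    adjF G f u = θ * f u + c := by
  have e : ∑ u, (adjF G f u - θ * f u - c) ^ 2 = ∑ u, adjF G f u * adjF G f u +
      θ ^ 2 * ∑ u, f u * f u - 2 * θ * ∑ u, f u * adjF G f u + ∑ _u : V, c ^ 2 -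
      2 * c * ∑ u, adjF G f u + 2 * c * θ * ∑ u, f u := by
    simp only [mul_sum, ← sum_add_distrib, ← sum_sub_distrib]
    exact sum_congr rfl fun _ _ => by ring
  rw [sum_adjF_sq hG, sum_adjF hG, sum_const, card_univ, hG.card, nsmul_eq_mul] at e
  have h0 : ∑ u, (adjF G f u - θ * f u - c) ^ 2 = 0 :=
    le_antisymm (by rw [e]; linarith) (sum_nonneg fun _ _ => sq_nonneg _)
  have := (sum_eq_zero_iff_of_nonneg fun _ _ => sq_nonneg _).1 h0 u (mem_univ _)
  have := pow_eq_zero_iff (two_ne_zero) |>.1 this
  linarith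

theorem sum_dg (hG : G.IsSRGWith n k l m) (S : Finset V) :
    ∑ u, (dg G S u : ℤ) = k * S.card := by
  have := sum_adjF hG (ind S)
  simpa only [adjF_ind, sum_ind] using this

theorem sum_dg_sq (hG : G.IsSRGWith n k l m) (S : Finset V) :
    ∑ u, (dg G S u : ℤ) * dg G S u = (k - m : ℤ) * S.card +
      (l - m : ℤ) * ∑ u ∈ S, (dg G S u : ℤ) + m * (S.card : ℤ) ^ 2 := by
  have := sum_adjF_sq hG (ind S)
  simp only [adjF_ind, sum_ind, sum_ind_mul] at this
  rw [this, sum_congr rfl fun u hu => ind_of_mem hu]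
  simp

/-- sum of a quadratic polynomial in the degrees into a set -/
theorem sum_dg_quad (hG : G.IsSRGWith n k l m) (S : Finset V) (a b : ℤ) :
    ∑ u, ((dg G S u : ℤ) - a) * (dg G S u - b) = (k - m : ℤ) * S.card +
      (l - m : ℤ) * ∑ u ∈ S, (dg G S u : ℤ) + m * (S.card : ℤ) ^ 2 - (a + b) * k * S.card +
      n * a * b := by
  have e : ∑ u, ((dg G S u : ℤ) - a) * (dg G S u - b) = ∑ u, (dg G S u : ℤ) * dg G S u -
      (a + b) * ∑ u, (dg G S u : ℤ) + ∑ _u : V, a * b := by
    simp only [mul_sum, ← sum_add_distrib, ← sum_sub_distrib]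
    exact sum_congr rfl fun _ _ => by ring
  rw [e, sum_dg_sq hG, sum_dg hG, sum_const, card_univ, hG.card, nsmul_eq_mul]
  ring

end General

section Packing

variable {P W : Type*} [Fintype P] [DecidableEq P] [Fintype W]

theorem packing_injective {inc : W → Finset P} (h6 : ∀ w, (inc w).card = 6)
    (h2 : ∀ v w, v ≠ w → (inc v ∩ inc w).card ≤ 2) : Function.Injective inc := by
  intro v w e
  by_contra hne
  have := h2 v w hne
  rw [e, inter_self, h6] at this
  omega

/-- 77 six-sets on 22 points meeting pairwise in at most two points form an S(3,6,22). -/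
theorem steiner_of_packing (hP : Fintype.card P = 22) (hW : Fintype.card W = 77)
    {inc : W → Finset P} (h6 : ∀ w, (inc w).card = 6)
    (h2 : ∀ v w, v ≠ w → (inc v ∩ inc w).card ≤ 2) : IsSteinerSystem 3 6 (Set.range inc) := by
  classical
  have hd : ((univ : Finset W) : Set W).PairwiseDisjoint fun w => powersetCard 3 (inc w) := by
    intro v _ w _ hne
    rw [Function.onFun, disjoint_left]
    intro s hv hw
    rw [mem_powersetCard] at hv hw
    have := card_le_card (subset_inter hv.1 hw.1)
    have := h2 v w hne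
    omega
  have hc := card_biUnion hd
  simp only [card_powersetCard, h6, sum_const, card_univ, hW] at hc
  have he : univ.biUnion (fun w => powersetCard 3 (inc w)) = powersetCard 3 (univ : Finset P) := by
    apply eq_of_subset_of_card_le
    · intro s hs
      obtain ⟨w, -, hw⟩ := mem_biUnion.1 hs
      exact mem_powersetCard.2 ⟨subset_univ _, (mem_powersetCard.1 hw).2⟩
    · rw [hc, card_powersetCard, card_univ, hP]; decide
  refine ⟨by rintro _ ⟨w, rfl⟩; exact h6 w, fun s hs => ?_⟩
  have : s ∈ univ.biUnion (fun w => powersetCard 3 (inc w)) :=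
    he ▸ mem_powersetCard.2 ⟨subset_univ _, hs⟩
  obtain ⟨w, -, hw⟩ := mem_biUnion.1 this
  have hw := (mem_powersetCard.1 hw).1
  refine ⟨inc w, ⟨⟨w, rfl⟩, hw⟩, ?_⟩
  rintro _ ⟨⟨v, rfl⟩, hv⟩
  by_contra hne
  have := card_le_card (subset_inter hv hw)
  have := h2 v w fun e => hne (by rw [e])
  omega

end Packing

section Iso

variable {α β : Type*} [DecidableEq α] [DecidableEq β] {B : Set (Finset α)} {B' : Set (Finset β)}

/-- the bijection on blocks induced by an isomorphism of set systems -/
noncomputable def blockEquiv (e : α ≃ β) (he : (fun b => b.image e) '' B = B') : B ≃ B' :=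
  (Equiv.Set.image (fun b : Finset α => b.image e) B (image_injective e.injective)).trans
    (Equiv.setCongr he)

theorem blockEquiv_coe (e : α ≃ β) (he : (fun b => b.image e) '' B = B') (b : B) :
    (blockEquiv e he b : Finset β) = (b : Finset α).image e := rfl

theorem blockGraph_iso (h : SetSystemIso B B') : Nonempty (blockGraph B ≃g blockGraph B') := by
  obtain ⟨e, he⟩ := h
  refine ⟨⟨blockEquiv e he, fun {b c} => ?_⟩⟩
  simp only [blockGraph, SimpleGraph.fromRel_adj, blockEquiv_coe, disjoint_image e.injective,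
    ne_eq, EmbeddingLike.apply_eq_iff_eq]

/-- the isomorphism of point-block graphs induced by an isomorphism of set systems -/
noncomputable def pbIso (e : α ≃ β) (he : (fun b => b.image e) '' B = B') :
    pointBlockGraph B ≃g pointBlockGraph B' where
  toEquiv := Equiv.optionCongr (Equiv.sumCongr e (blockEquiv e he))
  map_rel_iff' := by
    have key : ∀ x y, pointBlockRel B' (Equiv.optionCongr (Equiv.sumCongr e (blockEquiv e he)) x)
        (Equiv.optionCongr (Equiv.sumCongr e (blockEquiv e he)) y) ↔ pointBlockRel B x y := by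
      rintro (_ | a | b) (_ | a' | b') <;>
        simp [pointBlockRel, blockEquiv_coe, disjoint_image e.injective]
    intro x y
    simp only [pointBlockGraph, SimpleGraph.fromRel_adj, key, ne_eq, EmbeddingLike.apply_eq_iff_eq]

theorem pbIso_none (e : α ≃ β) (he : (fun b => b.image e) '' B = B') : pbIso e he none = none := rfl

theorem pbIso_inl (e : α ≃ β) (he : (fun b => b.image e) '' B = B') (a : α) :
    pbIso e he (some (Sum.inl a)) = some (Sum.inl (e a)) := rfl

theorem pbIso_inr (e : α ≃ β) (he : (fun b => b.image e) '' B = B') (b : B) :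
    pbIso e he (some (Sum.inr b)) = some (Sum.inr (blockEquiv e he b)) := rfl

end Iso

end H17
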