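import Mathlib
import Cfsg.Agent.Base
import Cfsg.Agent.Lib.Design.SRG
import Cfsg.Agent.Lib.Design.Transfer

/-!
The strongly regular graph with parameters (100, 22, 0, 6): from any vertex it is the
point-block graph of an S(3,6,22).
-/

set_option autoImplicit false
set_option linter.unusedSectionVars false

namespace H17

open Finset Cfsg

variable {V : Type*} [Fintype V] [DecidableEq V] {G : SimpleGraph V} [DecidableRel G.Adj]

theorem card_nb_union {n k l m : ℕ} (hG : G.IsSRGWith n k l m) {v w : V} (hne : v ≠ w)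
    (h : ¬G.Adj v w) : (cn G v v ∪ cn G w w).card + m = 2 * k := by
  have := card_union_add_card_inter (cn G v v) (cn G w w)
  have e : cn G v v ∩ cn G w w = cn G v w := by ext u; simp [mem_cn]
  rw [e, card_cn_self hG, card_cn_self hG, card_cn_nadj hG hne h] at this
  omega

theorem dg_cn_of_adj {n k m : ℕ} (hG : G.IsSRGWith n k 0 m) {v w u : V}
    (h : u ∈ cn G v v ∪ cn G w w) : dg G (cn G v w) u = 0 := by
  rw [dg_eq_zero]
  intro x hx
  rw [mem_cn] at hx
  rcases mem_union.1 h with h | h
  · exact no_triangle hG (mem_cn.1 h).1 hx.1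
  · exact no_triangle hG (mem_cn.1 h).1 hx.2

theorem sum_dg_cn {n k m : ℕ} (hG : G.IsSRGWith n k 0 m) (v w : V) :
    ∑ u ∈ cn G v w, (dg G (cn G v w) u : ℤ) = 0 :=
  sum_eq_zero fun u hu => by
    rw [dg_cn_of_adj hG (mem_union_left _ (mem_cn.2 ⟨(mem_cn.1 hu).1, (mem_cn.1 hu).1⟩))]; rfl

theorem srg100_three (hG : G.IsSRGWith 100 22 0 6) {v w u : V} (hvw : v ≠ w) (h : ¬G.Adj v w)
    (huv : u ≠ v) (huw : u ≠ w) (h1 : ¬G.Adj v u) (h2 : ¬G.Adj w u) :
    dg G (cn G v w) u = 2 := by
  have hq := sum_dg_quad hG (cn G v w) 2 2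
  have h6 := card_cn_nadj hG hvw h
  have h38 := card_nb_union hG hvw h
  rw [sum_dg_cn hG, h6] at hq
  have hle : ∑ x, (16 * ind {v, w} x + 4 * ind (cn G v v ∪ cn G w w) x +
      ind {u} x * (((dg G (cn G v w) u : ℤ) - 2) * (dg G (cn G v w) u - 2))) ≤
      ∑ x, ((dg G (cn G v w) x : ℤ) - 2) * (dg G (cn G v w) x - 2) := by
    refine sum_le_sum fun x _ => ?_
    by_cases a1 : x ∈ ({v, w} : Finset V)
    · have : dg G (cn G v w) x = 6 := by
        rw [← h6]
        refine dg_eq_card fun y hy => ?_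
        rcases mem_insert.1 a1 with rfl | a1
        · exact (mem_cn.1 hy).1
        · rw [mem_singleton.1 a1]; exact (mem_cn.1 hy).2
      rw [ind_of_mem a1, ind_of_not_mem (fun e => by rw [dg_cn_of_adj hG e] at this; omega),
        ind_of_not_mem (fun e => by rw [mem_singleton.1 e] at a1; simp [huv, huw] at a1), this]
      norm_num
    · rw [ind_of_not_mem a1]
      by_cases a2 : x ∈ cn G v v ∪ cn G w w
      · rw [ind_of_mem a2, dg_cn_of_adj hG a2,
          ind_of_not_mem (fun e => by rw [mem_singleton.1 e] at a2; simp [mem_cn, h1, h2] at a2)]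
        norm_num
      · rw [ind_of_not_mem a2]
        by_cases a3 : x ∈ ({u} : Finset V)
        · rw [ind_of_mem a3, mem_singleton.1 a3]; simp
        · rw [ind_of_not_mem a3]; simpa using mul_self_nonneg _
  rw [hq, sum_add_distrib, sum_add_distrib, ← mul_sum, ← mul_sum, ← sum_mul, sum_ind, sum_ind,
    sum_ind, card_pair hvw, card_singleton, show (cn G v v ∪ cn G w w).card = 38 by omega] at hle
  have : ((dg G (cn G v w) u : ℤ) - 2) * (dg G (cn G v w) u - 2) = 0 :=
    le_antisymm (by push_cast at hle; linarith) (mul_self_nonneg _)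
  have := mul_self_eq_zero.1 this
  omega

theorem card_subtype_filter (p q : V → Prop) [DecidablePred p] [DecidablePred q] :
    (univ.filter fun x : {x // p x} => q x).card = (univ.filter fun x => p x ∧ q x).card := by
  refine card_bij (fun x _ => x.1) (fun x hx => ?_) (fun _ _ _ _ e => Subtype.ext e)
    fun x hx => ?_
  · simpa using ⟨x.2, by simpa using hx⟩
  · rw [mem_filter] at hx
    exact ⟨⟨x, hx.2.1⟩, by simpa using hx.2.2, rfl⟩

/-- From any vertex `v`, the graph is the point-block graph of a Steiner system S(3,6,22) on the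
neighbours of `v`. -/
theorem srg100_pointed (hG : G.IsSRGWith 100 22 0 6) (v : V) :
    Fintype.card {p // G.Adj v p} = 22 ∧ ∃ B : Set (Finset {p // G.Adj v p}),
      IsSteinerSystem 3 6 B ∧ ∃ e : pointBlockGraph B ≃g G, e none = v ∧
        ∀ p, e (some (Sum.inl p)) = p := by
  have hP : Fintype.card {p // G.Adj v p} = 22 := by
    rw [Fintype.card_subtype, ← card_cn_self hG v]
    congr 1; ext w; simp [mem_cn]
  have hW : Fintype.card {w // w ≠ v ∧ ¬G.Adj v w} = 77 := by
    rw [Fintype.card_subtype]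
    have e : (univ.filter fun w => w ≠ v ∧ ¬G.Adj v w) = (insert v (cn G v v))ᶜ := by
      ext w; simp [mem_cn]
    rw [e, card_compl, hG.card, card_insert_of_notMem (by simp [mem_cn]), card_cn_self hG]
  let inc : {w // w ≠ v ∧ ¬G.Adj v w} → Finset {p // G.Adj v p} :=
    fun w => univ.filter fun p => G.Adj w p
  have h6 : ∀ w, (inc w).card = 6 := fun w => by
    rw [← card_cn_nadj hG w.2.1.symm w.2.2]
    exact card_subtype_filter (G.Adj v) (G.Adj w)
  have hi : ∀ w u, (inc w ∩ inc u).card = dg G (cn G v w) u := fun w u => by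
    rw [← filter_and, card_subtype_filter (G.Adj v) fun p => G.Adj w p ∧ G.Adj u p, dg]
    congr 1; ext p; simp [mem_cn, and_assoc]
  have hadj : ∀ w u : {w // w ≠ v ∧ ¬G.Adj v w}, G.Adj w u → (inc w ∩ inc u).card = 0 :=
    fun w u h => by
      rw [hi]; exact dg_cn_of_adj hG (mem_union_right _ (mem_cn.2 ⟨h, h⟩))
  have hnadj : ∀ w u : {w // w ≠ v ∧ ¬G.Adj v w}, w ≠ u → ¬G.Adj w u →
      (inc w ∩ inc u).card = 2 := fun w u hne h => by
    rw [hi]
    exact srg100_three hG w.2.1.symm w.2.2 u.2.1 (fun e => hne (Subtype.ext e.symm)) u.2.2 h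
  have h2 : ∀ w u, w ≠ u → (inc w ∩ inc u).card ≤ 2 := fun w u hne => by
    by_cases h : G.Adj w u
    · rw [hadj w u h]; omega
    · rw [hnadj w u hne h]
  have hS := steiner_of_packing hP hW h6 h2
  refine ⟨hP, Set.range inc, hS, ?_⟩
  let r := Equiv.ofInjective inc (packing_injective h6 h2)
  have hr : ∀ b, inc (r.symm b) = b := fun b => Equiv.apply_ofInjective_symm _ b
  let f : Option ({p // G.Adj v p} ⊕ Set.range inc) → V := fun x =>
    match x with
    | none => v
    | some (Sum.inl p) => p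
    | some (Sum.inr b) => r.symm b
  have hf : Function.Bijective f := by
    constructor
    · rintro (_ | p | b) (_ | p' | b') e
      · rfl
      · exact absurd p'.2 (by rw [← show v = p' from e]; exact G.irrefl)
      · exact absurd e.symm (r.symm b').2.1
      · exact absurd p.2 (by rw [show (p : V) = v from e]; exact G.irrefl)
      · rw [Subtype.ext e]
      · exact absurd ((show (p : V) = r.symm b' from e) ▸ p.2) (r.symm b').2.2
      · exact absurd e (r.symm b).2.1
      · exact absurd (e ▸ p'.2 : G.Adj v (f (some (Sum.inr b)))) (r.symm b).2.2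
      · rw [r.symm.injective (Subtype.ext e)]
    · intro x
      by_cases h1 : x = v
      · exact ⟨none, h1.symm⟩
      · by_cases h2 : G.Adj v x
        · exact ⟨some (Sum.inl ⟨x, h2⟩), rfl⟩
        · exact ⟨some (Sum.inr (r ⟨x, h1, h2⟩)), congrArg Subtype.val (r.symm_apply_apply _)⟩
  have hne : ∀ b ∈ Set.range inc, b ≠ ∅ := by
    rintro _ ⟨w, rfl⟩ e
    have := h6 w
    rw [e] at this
    simp at this
  have hpb : ∀ (p : {p // G.Adj v p}) (b : Set.range inc),
      G.Adj (r.symm b) p ↔ p ∈ (b : Finset _) := fun p b => by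
    rw [← hr b]; simp [inc]
  refine ⟨⟨Equiv.ofBijective f hf, ?_⟩, rfl, fun _ => rfl⟩
  rintro (_ | p | b) (_ | p' | b')
  · exact iff_of_false G.irrefl pb_nn
  · exact iff_of_true p'.2 (pb_np _)
  · exact iff_of_false (r.symm b').2.2 (pb_nb _)
  · exact iff_of_true p.2.symm (pb_pn _)
  · exact iff_of_false (no_triangle hG p.2 p'.2) (pb_pp _ _)
  · rw [pb_pb, ← hpb, G.adj_comm]; rfl
  · exact iff_of_false (fun h => (r.symm b).2.2 h.symm) (pb_bn _)
  · rw [pb_bp, ← hpb]; rfl
  · rw [pb_bb hne, ← hr b, ← hr b', disjoint_iff_inter_eq_empty, ← card_eq_zero]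
    refine ⟨hadj _ _, fun h => ?_⟩
    by_contra hc
    by_cases e : r.symm b = r.symm b'
    · rw [e, inter_self, h6] at h; omega
    · rw [hnadj _ _ e hc] at h; omega

theorem w22_iso {α β : Type*} [Fintype α] [DecidableEq α] [Fintype β] [DecidableEq β]
    (hα : Fintype.card α = 22) (hβ : Fintype.card β = 22) {B : Set (Finset α)}
    {B' : Set (Finset β)} (hB : IsSteinerSystem 3 6 B) (hB' : IsSteinerSystem 3 6 B') :
    SetSystemIso B B' := by
  obtain ⟨g, h⟩ := emb22 hα hB
  obtain ⟨g', h'⟩ := emb22 hβ hB'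
  exact h.iso h'

/-- Pointed uniqueness: any vertex can be sent to any vertex. -/
theorem srg100_iso {W : Type*} [Fintype W] [DecidableEq W] {H : SimpleGraph W}
    [DecidableRel H.Adj] (hG : G.IsSRGWith 100 22 0 6) (hH : H.IsSRGWith 100 22 0 6) (v : V)
    (w : W) : ∃ e : G ≃g H, e v = w := by
  obtain ⟨h1, B, hB, e, he, -⟩ := srg100_pointed hG v
  obtain ⟨h2, B', hB', e', he', -⟩ := srg100_pointed hH w
  obtain ⟨φ, hφ⟩ := w22_iso h1 h2 hB hB'
  refine ⟨e.symm.trans ((pbIso φ hφ).trans e'), ?_⟩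
  have : e.symm v = none := e.injective (by rw [he]; exact e.apply_symm_apply v)
  show e' (pbIso φ hφ (e.symm v)) = w
  rw [this, pbIso_none, he']

end H17
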