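import Mathlib
import Cfsg.Agent.Base
import Cfsg.Agent.Lib.Design.SRG100
import Cfsg.Agent.Lib.Design.Aut
import Cfsg.Agent.Lib.Design.Sharp

/-!
The automorphism group of the point-block graph of S(3,6,22) and its simple subgroup of index 2.
-/

set_option autoImplicit false
set_option linter.unusedSectionVars false
set_option maxRecDepth 100000
set_option linter.style.haveILetI false

namespace H17

open H15 Cfsg MulAction
open scoped Pointwise

section Stab

variable {α : Type*} [Fintype α] [DecidableEq α] {B : Set (Finset α)}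

/-- automorphisms of the set system act on the point-block graph -/
noncomputable def pbHom (B : Set (Finset α)) :
    setSystemAut B →* (pointBlockGraph B ≃g pointBlockGraph B) where
  toFun τ := pbIso τ.1 τ.2
  map_one' := by
    refine RelIso.ext ?_
    rintro (_ | a | b)
    · rfl
    · rfl
    · exact congrArg (fun c : B => (some (Sum.inr c) : Option (α ⊕ B)))
        (Subtype.ext Finset.image_id)
  map_mul' σ τ := by
    refine RelIso.ext ?_
    rintro (_ | a | b)
    · rfl
    · rfl
    · exact congrArg (fun c : B => (some (Sum.inr c) : Option (α ⊕ B)))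
        (Subtype.ext (Finset.image_image (f := τ.1) (g := σ.1)).symm)

theorem pbHom_none (τ : setSystemAut B) : pbHom B τ none = none := rfl

theorem pbHom_inl (τ : setSystemAut B) (a : α) :
    pbHom B τ (some (Sum.inl a)) = some (Sum.inl ((τ : Equiv.Perm α) a)) := rfl

theorem pbHom_inr (τ : setSystemAut B) (b c : B) :
    pbHom B τ (some (Sum.inr b)) = some (Sum.inr c) ↔
      (τ : Equiv.Perm α) • (b : Finset α) = c := by
  show some (Sum.inr (blockEquiv τ.1 τ.2 b)) = _ ↔ _
  rw [Option.some.injEq, Sum.inr.injEq, Subtype.ext_iff]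
  rfl

theorem pbHom_injective : Function.Injective (pbHom B) := fun σ τ h =>
  Subtype.ext (Equiv.ext fun a => by
    have := pbHom_inl σ a
    rw [h, pbHom_inl] at this
    simpa using this.symm)

theorem pb_adj_none {x : Option (α ⊕ B)} (h : (pointBlockGraph B).Adj none x) :
    ∃ a, x = some (Sum.inl a) := by
  rcases x with _ | a | b
  · exact absurd h pb_nn
  · exact ⟨a, rfl⟩
  · exact absurd h (pb_nb _)

theorem pb_nadj_none {x : Option (α ⊕ B)} (h0 : x ≠ none) (h : ¬(pointBlockGraph B).Adj none x) :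
    ∃ b, x = some (Sum.inr b) := by
  rcases x with _ | a | b
  · exact absurd rfl h0
  · exact absurd (pb_np _) h
  · exact ⟨b, rfl⟩

theorem pbHom_range :
    (pbHom B).range =
      stabilizer (pointBlockGraph B ≃g pointBlockGraph B) (none : Option (α ⊕ B)) := by
  refine le_antisymm (by rintro _ ⟨τ, rfl⟩; rfl) fun σ hσ => ?_
  have hσ : σ none = none := hσ
  have h1 : ∀ a, ∃ a', σ (some (Sum.inl a)) = some (Sum.inl a') := fun a =>
    pb_adj_none (hσ ▸ σ.map_rel_iff.2 (pb_np a))
  choose u hu using h1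
  have hinj : Function.Injective u := fun a a' e => by
    have := hu a
    rw [e, ← hu a'] at this
    simpa using σ.injective this
  let τ : Equiv.Perm α := Equiv.ofBijective u (Finite.injective_iff_bijective.1 hinj)
  have h2 : ∀ b : B, ∃ c : B, σ (some (Sum.inr b)) = some (Sum.inr c) ∧ τ • (b : Finset α) = c := by
    intro b
    obtain ⟨c, hc⟩ := pb_nadj_none (x := σ (some (Sum.inr b)))
      (fun e => by simpa using σ.injective (e.trans hσ.symm))
      (fun h => pb_nb b (σ.map_rel_iff.1 (hσ.symm ▸ h)))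
    refine ⟨c, hc, Finset.ext fun a => ?_⟩
    obtain ⟨a, rfl⟩ := τ.surjective a
    rw [← pb_pb, ← hc, show some (Sum.inl (τ a)) = σ (some (Sum.inl a)) from (hu a).symm,
      σ.map_rel_iff, pb_pb]
    exact Finset.smul_mem_smul_finset_iff τ
  have hτ : τ ∈ setSystemAut B := mem_aut_iff.2 fun b hb => by
    obtain ⟨c, -, hc⟩ := h2 ⟨b, hb⟩
    exact hc ▸ c.2
  refine ⟨⟨τ, hτ⟩, RelIso.ext ?_⟩
  rintro (_ | a | b)
  · exact hσ.symm
  · exact (hu a).symm
  · obtain ⟨c, h, hc⟩ := h2 b
    rw [h]
    exact (pbHom_inr _ _ _).2 hc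

end Stab

section Prim

variable {V : Type*} [Fintype V] [DecidableEq V] {G : SimpleGraph V} [DecidableRel G.Adj]
  {X : Type*} [Group X] [MulAction X V]

/-- A rank 3 group on a strongly regular graph (100,22,0,6) is primitive. -/
theorem srg100_primitive (hG : G.IsSRGWith 100 22 0 6) [IsPretransitive X V]
    (hX : ∀ (x : X) v w, G.Adj (x • v) (x • w) ↔ G.Adj v w) (a : V)
    (h3 : ∀ v w, v ≠ a → w ≠ a → (G.Adj a v ↔ G.Adj a w) → ∃ x : X, x • a = a ∧ x • v = w) :
    IsPreprimitive X V := by
  refine IsPreprimitive.of_isTrivialBlock_base a fun {D} ha hD => ?_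
  by_cases hs : D.Subsingleton
  · exact Or.inl hs
  right
  obtain ⟨b, hb, hba⟩ := (Set.not_subsingleton_iff.1 hs).exists_ne a
  have key : ∀ v ∈ D, ∀ w, w ≠ v → (G.Adj v w ↔ G.Adj a b) → w ∈ D := by
    intro v hv w hwv h
    obtain ⟨y, rfl⟩ := exists_smul_eq X a v
    obtain ⟨w, rfl⟩ := MulAction.surjective y w
    obtain ⟨x, h1, rfl⟩ := h3 b w hba (fun e => hwv (by rw [e])) (by rw [← h, hX])
    rw [← hD.smul_eq_of_mem ha hv, ← hD.smul_eq_of_mem ha (h1.symm ▸ ha : x • a ∈ D)]
    exact Set.smul_mem_smul_set (Set.smul_mem_smul_set hb)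
  refine Set.eq_univ_of_forall fun w => ?_
  by_cases hw : w = a
  · exact hw ▸ ha
  by_cases e : G.Adj a w ↔ G.Adj a b
  · exact key a ha w hw e
  by_cases hab : G.Adj a b
  · have haw : ¬G.Adj a w := fun h => e (iff_of_true h hab)
    obtain ⟨u, hu⟩ : (cn G a w).Nonempty :=
      Finset.card_pos.1 (by rw [card_cn_nadj hG (Ne.symm hw) haw]; norm_num)
    rw [mem_cn] at hu
    exact key u (key a ha u hu.1.ne' (iff_of_true hu.1 hab)) w hu.2.ne (iff_of_true hu.2.symm hab)
  · have haw : G.Adj a w := by tauto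
    obtain ⟨u, hu⟩ : (cn G a a ∪ cn G w w)ᶜ.Nonempty := Finset.card_pos.1 (by
      have := Finset.card_union_le (cn G a a) (cn G w w)
      rw [card_cn_self hG, card_cn_self hG] at this
      rw [Finset.card_compl, hG.card]; omega)
    simp only [Finset.mem_compl, Finset.mem_union, mem_cn, and_self, not_or] at hu
    exact key u (key a ha u (fun e => hu.2 (e ▸ haw.symm)) (iff_of_false hu.1 hab)) w
      (fun e => hu.1 (e ▸ haw)) (iff_of_false (fun h => hu.2 h.symm) hab)

/-- A primitive group of degree 100 with simple point stabiliser is simple. -/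
theorem simple_of_primitive_100 [FaithfulSMul X V] [IsPreprimitive X V] (hV : Nat.card V = 100)
    (a : V) (hs : IsSimpleGroup (stabilizer X a)) : IsSimpleGroup X := by
  haveI : Nontrivial X := (Subgroup.subtype_injective (stabilizer X a)).nontrivial
  refine simple_of_primitive a hs fun N hN hNt h => ?_
  have hc := (card_of_regular_normal N a h).trans hV
  haveI : Finite N := Nat.finite_of_card_ne_zero (by rw [hc]; norm_num)
  haveI : Fact (Nat.Prime 5) := ⟨by norm_num⟩
  obtain ⟨P⟩ : Nonempty (Sylow 5 N) := inferInstance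
  have hP : Nat.card P = 25 := by
    rw [P.card_eq_multiplicity, hc, show (100 : ℕ).factorization 5 = 2 by
      rw [← Nat.primeFactorsList_count_eq]; simp [Nat.primeFactorsList_ofNat]]
    rfl
  have h1 := card_sylow_modEq_one 5 N
  have h2 := P.card_dvd_index
  have h3 := P.card_mul_index
  rw [hP, hc] at h3
  rw [show P.index = 4 by omega] at h2
  have h4 : Nat.card (Sylow 5 N) = 1 := by
    have := Nat.le_of_dvd (by norm_num) h2
    unfold Nat.ModEq at h1
    omega
  haveI : Subsingleton (Sylow 5 N) := (Nat.card_eq_one_iff_unique.1 h4).1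
  haveI := P.characteristic_of_subsingleton
  have hQ : Nat.card ((P : Subgroup N).map N.subtype) = 25 := by
    rw [Subgroup.card_subtype, hP]
  haveI := H26.normal_isPretransitive (α := V) ((P : Subgroup N).map N.subtype) (by
    intro e; rw [e] at hQ; simp at hQ)
  have := card_dvd_of_pretransitive ((P : Subgroup N).map N.subtype) a
  rw [hQ, hV] at this
  norm_num at this

end Prim

theorem le_of_simple_of_index_two {X : Type*} [Group X] {H K : Subgroup X} (hH : H.index = 2)
    (hK : IsSimpleGroup K) (h2 : 2 < Nat.card K) : K ≤ H := by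
  haveI := Subgroup.normal_of_index_eq_two hH
  rcases hK.eq_bot_or_eq_top_of_normal (H.subgroupOf K) inferInstance with h | h
  · have := Subgroup.relIndex_dvd_index_of_normal H K
    rw [Subgroup.relIndex, h, Subgroup.index_bot, hH] at this
    have := Nat.le_of_dvd (by norm_num) this
    omega
  · exact Subgroup.subgroupOf_eq_top.1 h

/-- an involution of `M24` with 8 fixed points exchanging the points 22 and 23 -/
def t22 : ℕ := 944577216657240729214455772502077024

theorem t22_ok : inM24 t22 = true := by decide +kernel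

theorem t22_mem : permOf t22 ∈ M22d :=
  ⟨permOf_mem_M24 t22_ok, by
    rw [← z22_eq]
    exact (permOf_smul (okP_of_inM24 t22_ok) _).trans (congrArg ofMask (by decide +kernel))⟩

theorem t22_sq : permOf t22 ^ 2 = 1 := permOf_pow_eq_one (okP_of_inM24 t22_ok) (by decide +kernel)

theorem t22_fix : (Finset.univ.filter fun p => permOf t22 p = p) = ofMask 3172097 := by
  ext p
  rw [Finset.mem_filter, permOf_apply (okP_of_inM24 t22_ok)]
  revert p
  decide +kernel

theorem t22_octads :
    {X | X ∈ octads ∧ ofMask 12582912 ⊆ X ∧ permOf t22 • X = X}.ncard = 21 := by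
  rw [ncard_codeSets_filter (fun m => Nat.beq (wt m) 8 && Nat.beq (Nat.land 12582912 m) 12582912 &&
    Nat.beq (imgM t22 m) m) _ (fun u hu => ?_) fun X hX => hX.1.1]
  · decide +kernel
  · simp only [Set.mem_ofPred_eq, Bool.and_eq_true, Nat.beq_eq, mem_octads_iff, card_ofMask,
      ofMask_cw_mem hu, true_and, ofMask_subset_iff (show 12582912 < 2 ^ 24 by norm_num),
      permOf_smul (okP_of_inM24 t22_ok), and_assoc]
    exact and_congr Iff.rfl (and_congr Iff.rfl
      ⟨ofMask_inj (imgM_lt (okP_of_inM24 t22_ok) _) (cw_lt hu), congrArg ofMask⟩)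

section Main

variable {α : Type*} [Fintype α] [DecidableEq α] {B : Set (Finset α)}

theorem pbAut_pretransitive (hα : Fintype.card α = 22) (hB : IsSteinerSystem 3 6 B) :
    IsPretransitive (pointBlockGraph B ≃g pointBlockGraph B) (Option (α ⊕ B)) := by
  classical
  haveI : Fintype B := Fintype.ofFinite _
  exact ⟨fun v w => srg100_iso (pb_srg hα hB) (pb_srg hα hB) v w⟩

theorem pb_natCard (hα : Fintype.card α = 22) (hB : IsSteinerSystem 3 6 B) :
    Nat.card (Option (α ⊕ B)) = 100 := by
  classical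
  haveI : Fintype B := Fintype.ofFinite _
  rw [Nat.card_eq_fintype_card, (pb_srg hα hB).card]

theorem pbAut_card (hα : Fintype.card α = 22) (hB : IsSteinerSystem 3 6 B) :
    Nat.card (pointBlockGraph B ≃g pointBlockGraph B) = 88704000 := by
  haveI := pbAut_pretransitive hα hB
  obtain ⟨g, -, -, φ, -⟩ := aut22 hα hB
  have := (stabilizer (pointBlockGraph B ≃g pointBlockGraph B)
    (none : Option (α ⊕ B))).card_mul_index
  rw [index_stabilizer_of_transitive, pb_natCard hα hB, ← pbHom_range,
    ← Nat.card_congr (MonoidHom.ofInjective pbHom_injective).toEquiv, ← Nat.card_congr φ.toEquiv,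
    card_M22d] at this
  rw [← this]

/-- The Higman–Sims group as a subgroup of index 2 of the automorphism group of the graph. -/
theorem pbAut_simple (hα : Fintype.card α = 22) (hB : IsSteinerSystem 3 6 B) :
    ∃ H : Subgroup (pointBlockGraph B ≃g pointBlockGraph B), H.index = 2 ∧ IsSimpleGroup H ∧
      Nat.card H = 44352000 ∧ IsPretransitive H (Option (α ⊕ B)) ∧
      Nonempty (stabilizer H (none : Option (α ⊕ B)) ≃* Spor.M22) ∧
      ∀ v w : Option (α ⊕ B), v ≠ none → w ≠ none →
        ((pointBlockGraph B).Adj none v ↔ (pointBlockGraph B).Adj none w) →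
        ∃ x : H, x • (none : Option (α ⊕ B)) = none ∧ x • v = w := by
  classical
  haveI : Fintype B := Fintype.ofFinite _
  haveI := pbAut_pretransitive hα hB
  have hsrg := pb_srg hα hB
  obtain ⟨g, hg, hgB, φ, hφ⟩ := aut22 hα hB
  have hne : (none : GolayPt) ≠ pt 22 := by decide
  let θ : M22d →* (pointBlockGraph B ≃g pointBlockGraph B) := (pbHom B).comp φ
  have hθ : Function.Injective θ := pbHom_injective.comp φ.injective
  have hθs : ∀ σ : pointBlockGraph B ≃g pointBlockGraph B, σ none = none → ∃ x, θ x = σ := by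
    intro σ hσ
    obtain ⟨τ, rfl⟩ : σ ∈ (pbHom B).range := by rw [pbHom_range]; exact hσ
    exact ⟨φ.symm τ, congrArg (pbHom B) (φ.apply_symm_apply τ)⟩
  have hmap : ∀ (x : M22d) (b : Finset α), {none, pt 22} ∪ ((φ x : Equiv.Perm α) • b).map g =
      (x : Equiv.Perm GolayPt) • ({none, pt 22} ∪ b.map g) := by
    intro x b
    rw [smul_union, mem_St_set.1 x.2.2]
    congr 1
    ext p
    simp only [Finset.mem_map, Finset.mem_smul_finset, Equiv.Perm.smul_def]
    constructor
    · rintro ⟨_, ⟨a, ha, rfl⟩, rfl⟩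
      exact ⟨g a, ⟨a, ha, rfl⟩, (hφ x a).symm⟩
    · rintro ⟨_, ⟨a, ha, rfl⟩, rfl⟩
      exact ⟨_, ⟨a, ha, rfl⟩, hφ x a⟩
  have hlift : Function.Injective fun b : Finset α => ({none, pt 22} ∪ b.map g : Finset GolayPt) := by
    intro b c e
    ext a
    have := (hg _).2 ⟨a, rfl⟩
    simpa [this.1, this.2] using Finset.ext_iff.1 e (g a)
  let ε : (pointBlockGraph B ≃g pointBlockGraph B) →* ℤˣ :=
    Equiv.Perm.sign.comp (toPermHom _ (Option (α ⊕ B)))
  let t : M22d := ⟨permOf t22, t22_mem⟩
  have ht : ε (θ t) = -1 := by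
    have h2 : toPermHom _ (Option (α ⊕ B)) (θ t) ^ 2 = 1 := by
      rw [← map_pow, ← map_pow, show t ^ 2 = 1 from Subtype.ext t22_sq, map_one, map_one]
    have hc := pb_card_set (Function.fixedPoints (toPermHom _ (Option (α ⊕ B)) (θ t)))
      (Finset.univ.filter fun a => (φ t : Equiv.Perm α) a = a)
      (Finset.univ.filter fun b => b ∈ B ∧ (φ t : Equiv.Perm α) • b = b)
      (fun a => by
        rw [Finset.mem_filter]
        show _ ↔ some (Sum.inl ((φ t : Equiv.Perm α) a)) = _
        simp)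
      (fun d => by
        rw [Finset.mem_filter]
        exact ⟨fun h => ⟨h.2.1, (pbHom_inr _ _ _).2 h.2.2⟩,
          fun ⟨h, h'⟩ => ⟨Finset.mem_univ _, h, (pbHom_inr _ _ _).1 h'⟩⟩)
    have c1 : (Finset.univ.filter fun a => (φ t : Equiv.Perm α) a = a).card = 8 := by
      have : (Finset.univ.filter fun a => (φ t : Equiv.Perm α) a = a).map g = ofMask 3172097 := by
        have h0 : ∀ p ∈ ofMask 3172097, p ≠ none ∧ p ≠ pt 22 := by decide +kernel
        ext p
        rw [Finset.mem_map]
        constructor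
        · rintro ⟨a, ha, rfl⟩
          rw [← t22_fix, Finset.mem_filter]
          exact ⟨Finset.mem_univ _, (hφ t a).symm.trans (congrArg g (Finset.mem_filter.1 ha).2)⟩
        · intro hp
          obtain ⟨a, rfl⟩ := (hg p).1 (h0 p hp)
          rw [← t22_fix, Finset.mem_filter] at hp
          exact ⟨a, Finset.mem_filter.2 ⟨Finset.mem_univ _, g.injective ((hφ t a).trans hp.2)⟩, rfl⟩
      rw [← Finset.card_map g, this]
      decide +kernel
    have c2 : (Finset.univ.filter fun b => b ∈ B ∧ (φ t : Equiv.Perm α) • b = b).card = 21 := by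
      rw [← t22_octads, ← Set.ncard_coe_finset, ← Set.ncard_image_of_injective _ hlift]
      congr 1
      ext X
      constructor
      · rintro ⟨b, hb, rfl⟩
        have hb := (Finset.mem_filter.1 hb).2
        exact ⟨(hgB b).1 hb.1, z22_eq ▸ Finset.subset_union_left,
          (hmap t b).symm.trans (by rw [hb.2])⟩
      · rintro ⟨h1, h2, h3⟩
        rw [z22_eq] at h2
        obtain ⟨b, rfl⟩ := exists_lift' (U := Finset.univ \ {none, pt 22}) Finset.disjoint_sdiff
          (g := g) (fun p => by simpa using hg p) h2 (by simp)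
        exact ⟨b, Finset.mem_filter.2 ⟨Finset.mem_univ _, (hgB b).2 h1,
          hlift ((hmap t b).trans h3)⟩, rfl⟩
    rw [c1, c2, if_pos (show none ∈ Function.fixedPoints
      (toPermHom _ (Option (α ⊕ B)) (θ t)) from rfl)] at hc
    show Equiv.Perm.sign (toPermHom _ (Option (α ⊕ B)) (θ t)) = -1
    rw [Equiv.Perm.sign_of_pow_two_eq_one h2, hsrg.card]
    convert show (-1 : ℤˣ) ^ ((100 - 30) / 2) = -1 by decide
  have hidx : ε.ker.index = 2 := by
    have : ε.range = ⊤ := by
      rw [eq_top_iff]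
      intro u _
      rcases Int.units_eq_one_or u with rfl | rfl
      exacts [one_mem _, ⟨_, ht⟩]
    rw [Subgroup.index_ker, this]
    simp
  have htH : θ t ∉ ε.ker := by rw [MonoidHom.mem_ker, ht]; decide
  let K0 := (M24 ⊓ St (none : GolayPt) ⊓ St (pt 22)).subgroupOf M22d
  let e0 : K0.map θ ≃* ↥(M24 ⊓ St (none : GolayPt) ⊓ St (pt 22)) :=
    (K0.equivMapOfInjective θ hθ).symm.trans (Subgroup.subgroupOfEquivOfLe stab2_le_M22d)
  haveI := isSimple_stab2 hne
  have hKH : K0.map θ ≤ ε.ker := le_of_simple_of_index_two hidx e0.isSimpleGroup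
    (by rw [Nat.card_congr e0.toEquiv, card_stab2 hne]; norm_num)
  have hK0 : K0.index = 2 := by
    have := K0.card_mul_index
    rw [Nat.card_congr (Subgroup.subgroupOfEquivOfLe stab2_le_M22d).toEquiv, card_stab2 hne,
      card_M22d] at this
    omega
  have hKS : K0.map θ = ε.ker ⊓ stabilizer _ (none : Option (α ⊕ B)) := by
    refine le_antisymm (le_inf hKH (by rintro _ ⟨x, -, rfl⟩; rfl)) fun σ hσ => ?_
    obtain ⟨x, rfl⟩ := hθs σ hσ.2
    refine ⟨x, by_contra fun hx => htH ?_, rfl⟩
    have : t * x ∈ K0 := (Subgroup.mul_mem_iff_of_index_two hK0).2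
      (iff_of_false (fun h => htH (hKH ⟨t, h, rfl⟩)) hx)
    have := hKH ⟨_, this, rfl⟩
    rwa [map_mul, ε.ker.mul_mem_cancel_right hσ.1] at this
  have e1 : stabilizer ε.ker (none : Option (α ⊕ B)) ≃* K0.map θ :=
    (MulEquiv.subgroupCongr (by rw [hKS, Subgroup.inf_subgroupOf_left]; rfl)).trans
      (Subgroup.subgroupOfEquivOfLe hKH)
  have htr : IsPretransitive ε.ker (Option (α ⊕ B)) := by
    refine IsPretransitive.of_orbit (x₀ := none) fun v => ?_
    obtain ⟨σ, hσ⟩ := exists_smul_eq (pointBlockGraph B ≃g pointBlockGraph B) none v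
    by_cases h : σ ∈ ε.ker
    · exact ⟨⟨σ, h⟩, hσ⟩
    · exact ⟨⟨σ * θ t, (Subgroup.mul_mem_iff_of_index_two hidx).2 (iff_of_false h htH)⟩, hσ⟩
  have h3t : ∀ x y : Fin 3 → α, Function.Injective x → Function.Injective y →
      ∃ k ∈ K0, ∀ i, (φ k : Equiv.Perm α) (x i) = y i := by
    intro x y hx hy
    have key : ∀ x : Fin 3 → α, Function.Injective x → Function.Injective
        (Fin.cons none (Fin.cons (pt 22) (fun i => g (x i)) : Fin 4 → GolayPt) :
          Fin 5 → GolayPt) := fun x hx => by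
      refine Fin.cons_injective_iff.2 ⟨?_, Fin.cons_injective_iff.2
        ⟨fun ⟨i, hi⟩ => ((hg _).2 ⟨_, rfl⟩).2 hi, g.injective.comp hx⟩⟩
      rintro ⟨i, hi⟩
      refine Fin.cases (fun h => hne h.symm) (fun i h => ((hg _).2 ⟨_, rfl⟩).1 h) i hi
    obtain ⟨k, hk, h⟩ := M24_trans5 _ _ (key x hx) (key y hy)
    exact ⟨⟨k, stab2_le_M22d ⟨⟨hk, h 0⟩, h 1⟩⟩, ⟨⟨hk, h 0⟩, h 1⟩,
      fun i => g.injective ((hφ _ _).trans (h i.succ.succ))⟩
  have hin : ∀ {s : Finset α}, 3 ≤ s.card → ∀ a ∈ s,
      ∃ x : Fin 3 → α, Function.Injective x ∧ x 0 = a ∧ ∀ i, x i ∈ s := by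
    intro s hs a ha
    obtain ⟨b, hb, c, hc, hbc⟩ := Finset.one_lt_card.1
      (show 1 < (s.erase a).card by rw [Finset.card_erase_of_mem ha]; omega)
    rw [Finset.mem_erase] at hb hc
    refine ⟨![a, b, c], injective_vec3 hb.1.symm hc.1.symm hbc, rfl, fun i => ?_⟩
    fin_cases i
    exacts [ha, hb.2, hc.2]
  have hr3 : ∀ v w : Option (α ⊕ B), v ≠ none → w ≠ none →
      ((pointBlockGraph B).Adj none v ↔ (pointBlockGraph B).Adj none w) →
      ∃ x : ε.ker, x • (none : Option (α ⊕ B)) = none ∧ x • v = w := by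
    intro v w hv hw h
    by_cases h1 : (pointBlockGraph B).Adj none v
    · obtain ⟨a, rfl⟩ := pb_adj_none h1
      obtain ⟨b, rfl⟩ := pb_adj_none (h.1 h1)
      obtain ⟨x, hx, rfl, -⟩ := hin (s := Finset.univ) (by simp [hα]) a (Finset.mem_univ _)
      obtain ⟨y, hy, rfl, -⟩ := hin (s := Finset.univ) (by simp [hα]) b (Finset.mem_univ _)
      obtain ⟨k, hk, e⟩ := h3t x y hx hy
      exact ⟨⟨θ k, hKH ⟨k, hk, rfl⟩⟩, rfl, congrArg (fun a => some (Sum.inl a)) (e 0)⟩
    · obtain ⟨b, rfl⟩ := pb_nadj_none hv h1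
      obtain ⟨c, rfl⟩ := pb_nadj_none hw fun e => h1 (h.2 e)
      have hb := hB.1 _ b.2
      have hc := hB.1 _ c.2
      obtain ⟨a, ha⟩ : (b : Finset α).Nonempty := Finset.card_pos.1 (by omega)
      obtain ⟨a', ha'⟩ : (c : Finset α).Nonempty := Finset.card_pos.1 (by omega)
      obtain ⟨x, hx, -, hxb⟩ := hin (s := b) (by omega) a ha
      obtain ⟨y, hy, -, hyc⟩ := hin (s := c) (by omega) a' ha'
      obtain ⟨k, hk, e⟩ := h3t x y hx hy
      refine ⟨⟨θ k, hKH ⟨k, hk, rfl⟩⟩, rfl, (pbHom_inr _ _ _).2 ?_⟩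
      refine (hB.2 (Finset.univ.image y) (by
        rw [Finset.card_image_of_injective _ hy]; rfl)).unique
        ⟨mem_aut_iff.1 (φ k).2 _ b.2, fun z hz => ?_⟩ ⟨c.2, fun z hz => ?_⟩
      · obtain ⟨i, -, rfl⟩ := Finset.mem_image.1 hz
        rw [← e i]
        exact Finset.smul_mem_smul_finset (hxb i)
      · obtain ⟨i, -, rfl⟩ := Finset.mem_image.1 hz
        exact hyc i
  haveI := srg100_primitive hsrg (X := ε.ker) (fun x v w => x.1.map_rel_iff) none hr3
  refine ⟨ε.ker, hidx, simple_of_primitive_100 (pb_natCard hα hB) none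
    (e1.trans e0).isSimpleGroup, ?_, htr, ⟨(e1.trans e0).trans (stab2_equiv hne).some⟩, hr3⟩
  have := ε.ker.card_mul_index
  rw [hidx, pbAut_card hα hB] at this
  omega

end Main

end H17
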