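import Mathlib
import Cfsg.Agent.Base
import Cfsg.Agent.Lib.Design.HSGraph

/-!
Rank 3 groups; the rank 3 groups of degree 100 with subdegrees 22 and 77.
-/

set_option autoImplicit false
set_option linter.unusedSectionVars false
set_option linter.style.haveILetI false

namespace H17

open Finset Cfsg MulAction

section Trace

variable {V : Type*} [Fintype V] [DecidableEq V] {G : SimpleGraph V} [DecidableRel G.Adj]
  {n k l m : ℕ}

theorem trace_nat_of_idem {E : Matrix V V ℚ} (h : E * E = E) : ∃ r : ℕ, E.trace = r := by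
  have h1 : IsIdempotentElem (Matrix.toLin' E) := by
    show Matrix.toLin' E ∘ₗ Matrix.toLin' E = _
    rw [← Matrix.toLin'_mul, h]
  exact ⟨_, (Matrix.trace_toLin'_eq E).symm.trans (LinearMap.IsIdempotentElem.isProj_range _ h1).trace⟩

/-- Integrality condition: the trace of an idempotent of the Bose–Mesner algebra. -/
theorem srg_integrality (hG : G.IsSRGWith n k l m) (a b c : ℚ)
    (h1 : a * a * (l - m) + 2 * a * b = a) (h2 : a * a * (k - m) + b * b = b)
    (h3 : a * a * m + 2 * a * c * k + 2 * b * c + c * c * n = c) :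
    ∃ r : ℕ, (b + c) * n = r := by
  let A := G.adjMatrix ℚ
  let J : Matrix V V ℚ := Matrix.of fun _ _ => 1
  have hAA : A * A = (l - m : ℚ) • A + (k - m : ℚ) • (1 : Matrix V V ℚ) + (m : ℚ) • J := by
    have := hG.matrix_eq (α := ℚ)
    rw [sq] at this
    rw [this]
    ext v w
    simp only [Matrix.add_apply, Matrix.smul_apply]
    by_cases e : v = w
    · subst e; simp [A, J]
    · by_cases e' : G.Adj v w <;> simp [A, J, e, e', Matrix.one_apply_ne e]
  have hAJ : A * J = (k : ℚ) • J := by
    ext v w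
    simp [A, J, hG.regular v]
  have hJA : J * A = (k : ℚ) • J := by
    ext v w
    simp [A, J, hG.regular w]
  have hJJ : J * J = (n : ℚ) • J := by
    ext v w
    simp [J, Matrix.mul_apply, hG.card]
  obtain ⟨r, hr⟩ := trace_nat_of_idem (E := a • A + b • (1 : Matrix V V ℚ) + c • J) (by
    simp only [add_mul, mul_add, smul_mul_assoc, mul_smul_comm, hAA, hAJ, hJA, hJJ, mul_one, one_mul]
    have : a • A + b • (1 : Matrix V V ℚ) + c • J = (a * a * (l - m) + 2 * a * b) • A +
        (a * a * (k - m) + b * b) • (1 : Matrix V V ℚ) +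
        (a * a * m + 2 * a * c * k + 2 * b * c + c * c * n) • J := by rw [h1, h2, h3]
    refine Eq.trans ?_ this.symm
    module)
  refine ⟨r, ?_⟩
  rw [← hr]
  simp [A, J, Matrix.trace, hG.card]
  ring

theorem srg_100_22 (hG : G.IsSRGWith 100 22 l m) : l = 0 ∧ m = 6 := by
  have hp := hG.param_eq G (by norm_num)
  obtain ⟨x⟩ : Nonempty V := Fintype.card_pos_iff.1 (by rw [hG.card]; norm_num)
  obtain ⟨y, hy⟩ : (cn G x x).Nonempty := card_pos.1 (by rw [card_cn_self hG]; norm_num)
  have hxy := (mem_cn.1 hy).1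
  have hsub : ∀ y, cn G x y ⊆ cn G x x := fun y w hw => mem_cn.2 ⟨(mem_cn.1 hw).1, (mem_cn.1 hw).1⟩
  have hy' : y ∉ cn G x y := fun h => G.irrefl (mem_cn.1 h).2
  have hl : l + 1 ≤ 22 := by
    have := card_le_card (insert_subset hy (hsub y))
    rwa [card_insert_of_notMem hy', card_cn_adj hG hxy, card_cn_self hG] at this
  have : (l = 0 ∧ m = 6) ∨ (l = 7 ∧ m = 4) ∨ (l = 14 ∧ m = 2) ∨ (l = 21 ∧ m = 0) := by omega
  rcases this with h | ⟨rfl, rfl⟩ | ⟨rfl, rfl⟩ | ⟨rfl, rfl⟩
  · exact h
  · obtain ⟨r, hr⟩ := srg_integrality hG (1 / 9) (1 / 3) (-1 / 36) (by norm_num) (by norm_num)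
      (by norm_num)
    have : (275 : ℚ) = 9 * r := by push_cast at hr; linarith
    have : 275 = 9 * r := by exact_mod_cast this
    omega
  · obtain ⟨z, hz, hz'⟩ : ∃ z ∈ cn G x x, z ∉ insert y (cn G x y) := by
      refine exists_mem_notMem_of_card_lt_card ?_
      rw [card_insert_of_notMem hy', card_cn_adj hG hxy, card_cn_self hG]; norm_num
    have hxz := (mem_cn.1 hz).1
    simp only [mem_insert, mem_cn, hxz, true_and, not_or] at hz'
    have h1 := card_union_add_card_inter (cn G x y) (cn G x z)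
    have h2 := card_le_card (union_subset (hsub y) (hsub z))
    have h3 : (cn G x y ∩ cn G x z).card ≤ (cn G y z).card := card_le_card fun w hw =>
      mem_cn.2 ⟨(mem_cn.1 (mem_inter.1 hw).1).2, (mem_cn.1 (mem_inter.1 hw).2).2⟩
    rw [card_cn_adj hG hxy, card_cn_adj hG hxz] at h1
    rw [card_cn_self hG] at h2
    rw [card_cn_nadj hG (Ne.symm hz'.1) hz'.2] at h3
    omega
  · obtain ⟨r, hr⟩ := srg_integrality hG (1 / 23) (1 / 23) 0 (by norm_num) (by norm_num)
      (by norm_num)
    have : (100 : ℚ) = 23 * r := by push_cast at hr; linarith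
    have : 100 = 23 * r := by exact_mod_cast this
    omega

end Trace

section Rank3

variable {V : Type*} [Fintype V] {X : Type*} [Group X] [MulAction X V]

theorem ncard_smul_eq (x : X) {S T : Set V} (h : ∀ w, x • w ∈ S ↔ w ∈ T) : S.ncard = T.ncard :=
  (Set.ncard_congr (fun w _ => x • w) (fun w hw => (h w).2 hw)
    (fun _ _ _ _ e => MulAction.injective x e)
    fun w hw => ⟨x⁻¹ • w, (h _).1 (by rwa [smul_inv_smul]), smul_inv_smul x w⟩).symm

/-- A transitive group of rank 3 with different subdegrees acts on a strongly regular graph. -/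
theorem srg_of_rank3 [IsPretransitive X V] {a b c : V} {k r : ℕ}
    (hb : (orbit (stabilizer X a) b).ncard = k) (hc : (orbit (stabilizer X a) c).ncard = r)
    (hk : 1 < k) (hkr : k < r) (hV : Fintype.card V = 1 + k + r) :
    ∃ (G : SimpleGraph V) (_ : DecidableRel G.Adj) (l m : ℕ), G.IsSRGWith (1 + k + r) k l m ∧
      (∀ (x : X) v w, G.Adj (x • v) (x • w) ↔ G.Adj v w) ∧
      ∀ v w, v ≠ a → w ≠ a → (G.Adj a v ↔ G.Adj a w) → ∃ x : X, x • a = a ∧ x • v = w := by
  classical
  have hne : ∀ {d : V} {s : ℕ}, (orbit (stabilizer X a) d).ncard = s → 1 < s →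
      a ∉ orbit (stabilizer X a) d := by
    intro d s hd hs ha
    rw [← orbit_eq_iff.2 ha] at hd
    have : orbit (stabilizer X a) a = {a} := Set.eq_singleton_iff_unique_mem.2
      ⟨mem_orbit_self _, by rintro _ ⟨x, rfl⟩; exact x.2⟩
    rw [this, Set.ncard_singleton] at hd
    omega
  have hab := hne hb hk
  have hac := hne hc (by omega)
  have hbc : Disjoint (orbit (stabilizer X a) b) (orbit (stabilizer X a) c) :=
    Set.disjoint_left.2 fun w h1 h2 => by
      rw [← orbit_eq_iff.2 h1, orbit_eq_iff.2 h2] at hb; omega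
  have hcov : ∀ w, w = a ∨ w ∈ orbit (stabilizer X a) b ∨ w ∈ orbit (stabilizer X a) c := by
    have : insert a (orbit (stabilizer X a) b ∪ orbit (stabilizer X a) c) = Set.univ := by
      rw [Set.eq_univ_iff_ncard, Set.ncard_insert_of_notMem (by simp [hab, hac]),
        Set.ncard_union_eq hbc, hb, hc, Nat.card_eq_fintype_card, hV]
      omega
    intro w
    simpa using Set.eq_univ_iff_forall.1 this w
  let R : V → V → Prop := fun v w => ∃ x : X, x • a = v ∧ x • b = w
  have hRa : ∀ w, R a w ↔ w ∈ orbit (stabilizer X a) b := fun w =>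
    ⟨fun ⟨x, h1, h2⟩ => ⟨⟨x, h1⟩, h2⟩, fun ⟨x, h⟩ => ⟨x, x.2, h⟩⟩
  have hR : ∀ (y : X) v w, R (y • v) (y • w) ↔ R v w := fun y v w =>
    ⟨fun ⟨x, h1, h2⟩ => ⟨y⁻¹ * x, by rw [mul_smul, h1, inv_smul_smul],
      by rw [mul_smul, h2, inv_smul_smul]⟩,
      fun ⟨x, h1, h2⟩ => ⟨y * x, by rw [mul_smul, h1], by rw [mul_smul, h2]⟩⟩
  have hout : ∀ v, {w | R v w}.ncard = k := fun v => by
    obtain ⟨y, rfl⟩ := exists_smul_eq X a v
    rw [← hb]
    exact ncard_smul_eq y fun w => (hR y a w).trans (hRa w)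
  have hin : {w | R w a}.ncard = k := by
    have := card_mul_eq_card_mul (s := univ) (t := univ) R (m := k) (n := {w | R w a}.ncard)
      (fun v _ => by rw [← hout v, ← Set.ncard_coe_finset]; congr 1; ext w; simp)
      (fun v _ => by
        obtain ⟨y, rfl⟩ := exists_smul_eq X a v
        rw [← ncard_smul_eq y (S := {w | R w (y • a)}) (T := {w | R w a}) fun w => hR y w a,
          ← Set.ncard_coe_finset]
        congr 1; ext w; simp)
    exact (Nat.eq_of_mul_eq_mul_left (by rw [card_univ, hV]; omega) this).symm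
  have hirr : ∀ v, ¬R v v := fun v h => by
    obtain ⟨y, rfl⟩ := exists_smul_eq X a v
    exact hab ((hRa a).1 ((hR y a a).1 h))
  have hsa : ∀ w, R w a → R a w := by
    intro w hw
    rcases hcov w with rfl | h | h
    · exact hw
    · exact (hRa w).2 h
    · have : orbit (stabilizer X a) c ⊆ {w | R w a} := by
        rw [← orbit_eq_iff.2 h]
        rintro _ ⟨x, rfl⟩
        have := (hR x w a).2 hw
        rw [show (x : X) • a = a from x.2] at this
        exact this
      have := Set.ncard_le_ncard this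
      omega
  have hs : ∀ v w, R v w → R w v := by
    intro v w h
    obtain ⟨y, rfl⟩ := exists_smul_eq X a w
    obtain ⟨v, rfl⟩ := MulAction.surjective y v
    exact (hR y _ _).2 (hsa v ((hR y _ _).1 h))
  let G : SimpleGraph V := ⟨R, ⟨hs⟩, ⟨hirr⟩⟩
  have h3 : ∀ v w, v ≠ a → w ≠ a → (G.Adj a v ↔ G.Adj a w) → ∃ x : X, x • a = a ∧ x • v = w := by
    intro v w hv hw h
    have key : ∀ d, v ∈ orbit (stabilizer X a) d → w ∈ orbit (stabilizer X a) d →
        ∃ x : X, x • a = a ∧ x • v = w := fun d h1 h2 => by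
      rw [← orbit_eq_iff.2 h1] at h2
      obtain ⟨x, hx⟩ := h2
      exact ⟨x, x.2, hx⟩
    by_cases e : R a v
    · exact key b ((hRa v).1 e) ((hRa w).1 (h.1 e))
    · refine key c (((hcov v).resolve_left hv).resolve_left fun h' => e ((hRa v).2 h'))
        (((hcov w).resolve_left hw).resolve_left fun h' => e (h.2 ((hRa w).2 h')))
  have hcn : ∀ (y : X) v w, Fintype.card (G.commonNeighbors (y • v) (y • w)) =
      Fintype.card (G.commonNeighbors v w) := fun y v w => by
    rw [← Nat.card_eq_fintype_card, ← Nat.card_eq_fintype_card]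
    exact ncard_smul_eq y fun u => and_congr (hR y v u) (hR y w u)
  refine ⟨G, inferInstance, Fintype.card (G.commonNeighbors a b),
    Fintype.card (G.commonNeighbors a c), ⟨hV, fun v => ?_, ?_, ?_⟩, hR, h3⟩
  · rw [← hout v, ← SimpleGraph.card_neighborSet_eq_degree, ← Nat.card_eq_fintype_card]; rfl
  · rintro _ _ ⟨x, rfl, rfl⟩
    exact hcn x a b
  · intro v w hvw h
    obtain ⟨y, rfl⟩ := exists_smul_eq X a v
    obtain ⟨w, rfl⟩ := MulAction.surjective y w
    have hca : c ≠ a := fun e => hac (e ▸ mem_orbit_self _)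
    obtain ⟨x, h1, rfl⟩ := h3 c w hca (fun e => hvw (by rw [e])) (iff_of_false
      (fun e => Set.disjoint_left.1 hbc ((hRa c).1 e) (mem_orbit_self _))
      fun e => h ((hR y _ _).2 e))
    rw [hcn, ← hcn x a c, h1]

end Rank3

/-- A group of order 44352000 acting faithfully on a strongly regular graph (100,22,0,6) is the
simple subgroup of index 2 of the automorphism group. -/
theorem hs_equiv_of_srg {α : Type*} [Fintype α] [DecidableEq α] {B : Set (Finset α)}
    (hα : Fintype.card α = 22) (hB : IsSteinerSystem 3 6 B)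
    {H : Subgroup (pointBlockGraph B ≃g pointBlockGraph B)} (hH : IsSimpleGroup H)
    (hc : Nat.card H = 44352000)
    {V : Type*} [Fintype V] {G : SimpleGraph V} [DecidableRel G.Adj]
    (hG : G.IsSRGWith 100 22 0 6) {X : Type*} [Group X] [MulAction X V] [FaithfulSMul X V]
    (hX : ∀ (x : X) v w, G.Adj (x • v) (x • w) ↔ G.Adj v w) (hcX : Nat.card X = 44352000) (a : V) :
    ∃ (e : G ≃g pointBlockGraph B) (φ : X ≃* H), e a = none ∧
      ∀ (x : X) v, (φ x : pointBlockGraph B ≃g pointBlockGraph B) (e v) = e (x • v) := by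
  classical
  haveI : Fintype B := Fintype.ofFinite _
  obtain ⟨e, he⟩ := srg100_iso hG (pb_srg hα hB) a none
  let f : X →* (pointBlockGraph B ≃g pointBlockGraph B) :=
    { toFun := fun x => e.symm.trans ((⟨toPerm x, hX x _ _⟩ : G ≃g G).trans e)
      map_one' := RelIso.ext fun v => by
        show e ((1 : X) • e.symm v) = v
        simp
      map_mul' := fun x y => RelIso.ext fun v => by
        show e ((x * y) • e.symm v) = e (x • e.symm (e (y • e.symm v)))
        simp [mul_smul] }
  have hf : ∀ x v, f x (e v) = e (x • v) := fun x v => by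
    show e (x • e.symm (e v)) = _
    simp
  have hinj : Function.Injective f := fun x y h =>
    eq_of_smul_eq_smul (α := V) fun v => e.injective (by rw [← hf, ← hf, h])
  have hr : Nat.card f.range = 44352000 := by
    rw [← Nat.card_congr (MonoidHom.ofInjective hinj).toEquiv, hcX]
  have hi : f.range.index = 2 := by
    have := f.range.card_mul_index
    rw [hr, pbAut_card hα hB] at this
    omega
  have hle := le_of_simple_of_index_two hi hH (by rw [hc]; norm_num)
  haveI : Finite f.range := Nat.finite_of_card_ne_zero (by rw [hr]; norm_num)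
  have heq := Subgroup.eq_of_le_of_card_ge hle (by rw [hr, hc])
  exact ⟨e, (MonoidHom.ofInjective hinj).trans (MulEquiv.subgroupCongr heq.symm), he, hf⟩

theorem exists_w22 : ∃ B : Set (Finset {p : GolayPt // p ≠ none ∧ p ≠ some 0}),
    IsSteinerSystem 3 6 B := by
  classical
  let f : {p : GolayPt // p ≠ none ∧ p ≠ some 0} ↪ GolayPt := Function.Embedding.subtype _
  have hd : Disjoint ({none, some 0} : Finset GolayPt) (univ \ {none, some 0}) := disjoint_sdiff
  have hr : ∀ p, p ∈ (univ \ {none, some 0} : Finset GolayPt) ↔ ∃ a, f a = p := fun p => by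
    simp [f]
  have h2 : ({none, some 0} : Finset GolayPt).card = 2 := by decide
  refine ⟨{b | {none, some 0} ∪ b.map f ∈ octads}, fun b hb => ?_, fun s hs => ?_⟩
  · have := hb.2
    rw [lift_card hd hr, h2] at this
    omega
  · obtain ⟨o, ⟨ho, hso⟩, hu⟩ := H15.steiner_octads.2 ({none, some 0} ∪ s.map f)
      (by rw [lift_card hd hr, h2, hs])
    obtain ⟨b, rfl⟩ := exists_lift' hd hr (subset_union_left.trans hso) (by simp)
    have key : ∀ {b c : Finset {p : GolayPt // p ≠ none ∧ p ≠ some 0}},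
        {none, some 0} ∪ b.map f ⊆ {none, some 0} ∪ c.map f → b ⊆ c := fun h a ha => by
      simpa [f, a.2.1, a.2.2] using h (mem_union_right _ (mem_map_of_mem f ha))
    refine ⟨b, ⟨ho, key hso⟩, fun c hc => ?_⟩
    have := hu _ ⟨hc.1, union_subset_union_right (map_subset_map.2 hc.2)⟩
    exact Subset.antisymm (key this.le) (key this.ge)

/-- Rank 3 groups of degree 100 and order 44352000 with subdegrees 22 and 77 are simple and
permutationally isomorphic. -/
theorem hs_rank3_unique {V W : Type*} [Fintype V] [Fintype W] {X Y : Type*} [Group X] [Group Y]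
    [MulAction X V] [MulAction Y W] [FaithfulSMul X V] [FaithfulSMul Y W] [IsPretransitive X V]
    [IsPretransitive Y W] (hV : Fintype.card V = 100) (hW : Fintype.card W = 100)
    (hX : Nat.card X = 44352000) (hY : Nat.card Y = 44352000) {a b c : V} {a' b' c' : W}
    (hb : (orbit (stabilizer X a) b).ncard = 22) (hc : (orbit (stabilizer X a) c).ncard = 77)
    (hb' : (orbit (stabilizer Y a') b').ncard = 22) (hc' : (orbit (stabilizer Y a') c').ncard = 77) :
    IsSimpleGroup X ∧ ∃ (e : V ≃ W) (φ : X ≃* Y), e a = a' ∧ ∀ x v, φ x • e v = e (x • v) := by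
  classical
  obtain ⟨B, hB⟩ := exists_w22
  have hα : Fintype.card {p : GolayPt // p ≠ none ∧ p ≠ some 0} = 22 := by decide
  obtain ⟨H, -, hH, hcH, -⟩ := pbAut_simple hα hB
  obtain ⟨G, _, l, m, hG, h1, -⟩ := srg_of_rank3 hb hc (by norm_num) (by norm_num) hV
  obtain ⟨G', _, l', m', hG', h1', -⟩ := srg_of_rank3 hb' hc' (by norm_num) (by norm_num) hW
  obtain ⟨rfl, rfl⟩ := srg_100_22 hG
  obtain ⟨rfl, rfl⟩ := srg_100_22 hG'
  obtain ⟨e, φ, h2, h3⟩ := hs_equiv_of_srg hα hB hH hcH hG h1 hX a
  obtain ⟨e', φ', h2', h3'⟩ := hs_equiv_of_srg hα hB hH hcH hG' h1' hY a'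
  refine ⟨φ.isSimpleGroup, e.toEquiv.trans e'.symm.toEquiv, φ.trans φ'.symm,
    e'.injective ?_, fun x v => e'.injective ?_⟩
  · show e' (e'.symm (e a)) = _
    rw [h2', RelIso.apply_symm_apply, h2]
  · show e' (φ'.symm (φ x) • e'.symm (e v)) = e' (e'.symm (e (x • v)))
    rw [← h3', RelIso.apply_symm_apply, RelIso.apply_symm_apply, MulEquiv.apply_symm_apply, h3]

end H17
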