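import Mathlib
import Cfsg.Agent.Base
import Cfsg.Agent.Lib.Design.HSRank3
import Cfsg.Agent.Lib.Leech.Sub

/-!
The Higman–Sims group of the Leech lattice as a rank 3 group of degree 100.
-/

set_option autoImplicit false
set_option linter.style.haveILetI false

namespace H17

open Cfsg MulAction H16

/-- the Higman–Sims group inside `Co0` -/
abbrev HS0 : Subgroup Co0 := Stab vV ⊓ Stab vUP

/-- identification with the group of the definitions -/
noncomputable def hs0Equiv : HS0 ≃* Spor.HS :=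
  (MulEquiv.subgroupCongr (show HS0 = Spor.HS.subgroupOf Co0 from
    Subgroup.ext fun g => ⟨fun h => ⟨⟨g.2, h.1⟩, h.2⟩, fun h => ⟨h.1.2, h.2⟩⟩)).trans
    (Subgroup.subgroupOfEquivOfLe fun _ h => h.1.1)

/-- the 100 vectors -/
def hsPts : SubMulAction HS0 leechLattice where
  carrier := {x | sqNorm (x : GolayPt → ℤ) = 32 ∧ dotInt (vV : GolayPt → ℤ) (x : GolayPt → ℤ) = 24 ∧
    dotInt (vUP : GolayPt → ℤ) (x : GolayPt → ℤ) = 0}
  smul_mem' g x hx :=
    ⟨smul_mem_Min g.1 hx.1, (dot_of_fix g.2.1 x).trans hx.2.1, (dot_of_fix g.2.2 x).trans hx.2.2⟩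

noncomputable instance instActHsPts : MulAction HS0 hsPts := SubMulAction.mulAction hsPts

theorem card_hsPts : Nat.card hsPts = 100 := by
  have := (level_m22b.count fun _ => True).trans (show _ = 100 by decide)
  simp only [and_true] at this
  exact this

instance instFiniteHsPts : Finite hsPts :=
  Nat.finite_of_card_ne_zero (by rw [card_hsPts]; norm_num)

instance instPretransitiveHsPts : IsPretransitive HS0 hsPts := ⟨fun x y => by
  obtain ⟨g, h1, -, h2, h3⟩ := level_hs552.1 x y x.2.1 y.2.1 x.2.2.1 x.2.2.1 y.2.2.1 y.2.2.1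
    (x.2.2.2.trans y.2.2.2.symm)
  exact ⟨⟨g, h1, h2⟩, Subtype.ext h3⟩⟩

/-- the base point -/
def hsBase : hsPts := ⟨-vU, by
  refine ⟨?_, ?_, ?_⟩
  · rw [AddSubgroup.coe_neg, sqNorm_neg, norm_U]
  · rw [AddSubgroup.coe_neg, dotInt_neg_right, dot_VU]; rfl
  · rw [AddSubgroup.coe_neg, dotInt_neg_right, dotInt_comm, dot_UUP]; rfl⟩

theorem hs_orbit_ncard (y : hsPts) : (orbit (stabilizer HS0 hsBase) y).ncard =
    (orbit ↥(Stab vV ⊓ Stab vUP ⊓ Stab (-vU)) (y : leechLattice)).ncard := by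
  rw [← Set.ncard_image_of_injective _ Subtype.val_injective]
  congr 1
  ext x
  constructor
  · rintro ⟨_, ⟨g, rfl⟩, rfl⟩
    exact ⟨⟨g.1.1, g.1.2, congrArg Subtype.val g.2⟩, rfl⟩
  · rintro ⟨g, rfl⟩
    exact ⟨_, ⟨⟨⟨g.1, g.2.1⟩, Subtype.ext g.2.2⟩, rfl⟩, rfl⟩

theorem hs_orbit22 : ∃ b : hsPts, (orbit (stabilizer HS0 hsBase) b).ncard = 22 := by
  obtain ⟨y, hy, -, h⟩ := level_m22b.exists_orbit (H := Stab vV ⊓ Stab vUP ⊓ Stab (-vU))
    (fun g => and_assoc) 8 (n := 22) (by norm_num) (by decide)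
  exact ⟨⟨y, hy⟩, (hs_orbit_ncard _).trans h⟩

theorem hs_orbit77 : ∃ b : hsPts, (orbit (stabilizer HS0 hsBase) b).ncard = 77 := by
  obtain ⟨y, hy, -, h⟩ := level_m22b.exists_orbit (H := Stab vV ⊓ Stab vUP ⊓ Stab (-vU))
    (fun g => and_assoc) 16 (n := 77) (by norm_num) (by decide)
  exact ⟨⟨y, hy⟩, (hs_orbit_ncard _).trans h⟩

theorem hs_stab_equiv : Nonempty (stabilizer HS0 hsBase ≃* Spor.M22) := by
  have e : stabilizer HS0 hsBase = (permSub Spor.M22).subgroupOf HS0 := by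
    ext g
    rw [← stab_UWUP, ← stab_UV, Subgroup.mem_subgroupOf, mem_stabilizer_iff, Subtype.ext_iff]
    show g.1 • (-vU) = -vU ↔ _
    rw [smul_neg, neg_inj]
    exact ⟨fun h => ⟨⟨g.2.1, h⟩, g.2.2⟩, fun h => h.1.2⟩
  exact ⟨(MulEquiv.subgroupCongr e).trans ((Subgroup.subgroupOfEquivOfLe (by
    rw [← stab_UWUP, ← stab_UV]
    exact fun g h => ⟨h.1.1, h.2⟩)).trans (permSubEquiv fun _ h => h.1.1))⟩

instance instFaithfulHsPts : FaithfulSMul HS0 hsPts := by
  have hs : IsSimpleGroup (stabilizer HS0 hsBase) :=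
    haveI := H15.isSimple_M22
    hs_stab_equiv.some.isSimpleGroup
  suffices h : (toPermHom HS0 hsPts).ker = ⊥ from
    ⟨fun e => (MonoidHom.ker_eq_bot_iff _).1 h (Equiv.ext e)⟩
  rcases hs.eq_bot_or_eq_top_of_normal
    ((toPermHom HS0 hsPts).ker.subgroupOf (stabilizer HS0 hsBase)) inferInstance with h | h
  · rw [Subgroup.subgroupOf_eq_bot] at h
    exact h.eq_bot_of_le fun g hg => Equiv.congr_fun hg hsBase
  · obtain ⟨b, hb⟩ := hs_orbit22
    have : orbit (stabilizer HS0 hsBase) b = {b} := Set.eq_singleton_iff_unique_mem.2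
      ⟨mem_orbit_self _, by
        rintro _ ⟨g, rfl⟩
        exact Equiv.congr_fun (Subgroup.subgroupOf_eq_top.1 h g.2) b⟩
    rw [this, Set.ncard_singleton] at hb
    omega

/-- Recognition of the Higman–Sims group as a rank 3 group. -/
theorem hs_of_rank3 {V : Type*} [Fintype V] {X : Type*} [Group X] [MulAction X V]
    [FaithfulSMul X V] [IsPretransitive X V] (hV : Fintype.card V = 100)
    (hX : Nat.card X = 44352000) {a b c : V}
    (hb : (orbit (stabilizer X a) b).ncard = 22) (hc : (orbit (stabilizer X a) c).ncard = 77) :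
    IsSimpleGroup X ∧
      ∃ (e : V ≃ hsPts) (φ : X ≃* HS0), e a = hsBase ∧ ∀ x v, φ x • e v = e (x • v) := by
  haveI := Fintype.ofFinite hsPts
  obtain ⟨b', hb'⟩ := hs_orbit22
  obtain ⟨c', hc'⟩ := hs_orbit77
  exact hs_rank3_unique (Y := HS0) (W := hsPts) hV (by rw [← Nat.card_eq_fintype_card, card_hsPts]) hX card_HS hb hc hb' hc'

theorem isSimple_HS0 : IsSimpleGroup HS0 := by
  haveI := Fintype.ofFinite hsPts
  obtain ⟨b', hb'⟩ := hs_orbit22
  obtain ⟨c', hc'⟩ := hs_orbit77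
  exact (hs_of_rank3 (X := HS0) (V := hsPts) (by rw [← Nat.card_eq_fintype_card, card_hsPts]) card_HS hb' hc').1

theorem isSimple_SporHS : IsSimpleGroup Spor.HS :=
  haveI := isSimple_HS0
  hs0Equiv.symm.isSimpleGroup

theorem card_SporHS : Nat.card Spor.HS = 44352000 := by
  rw [← Nat.card_congr hs0Equiv.toEquiv, card_HS]

end H17
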