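import Mathlib
import Cfsg.Agent.Base
import Cfsg.Agent.Lib.Design.SRG100

/-!
The strongly regular graph with parameters (77, 16, 0, 4) is the block graph of an S(3,6,22).
-/

set_option autoImplicit false
set_option linter.unusedSectionVars false

namespace H17

open Finset Cfsg

variable {V : Type*} [Fintype V] [DecidableEq V] {G : SimpleGraph V} [DecidableRel G.Adj]

/-- a set of pairwise non-adjacent vertices -/
def Coc (G : SimpleGraph V) (S : Finset V) : Prop := ∀ x ∈ S, ∀ y ∈ S, ¬G.Adj x y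

theorem Coc.dg0 {S : Finset V} (h : Coc G S) {u : V} (hu : u ∈ S) : dg G S u = 0 :=
  dg_eq_zero.2 (h u hu)

theorem quad_nonneg (a : ℤ) : 0 ≤ (a - 1) * (a - 2) := by
  rcases le_or_gt a 1 with h | h
  · exact mul_nonneg_of_nonpos_of_nonpos (by omega) (by omega)
  · exact mul_nonneg (by omega) (by omega)

theorem srg77_no_K33 (hG : G.IsSRGWith 77 16 0 4) {X P : Finset V} (hX : X.card = 3)
    (hP : P.card = 3) (h : ∀ x ∈ X, ∀ p ∈ P, G.Adj x p) : False := by
  have hd : Disjoint X P := disjoint_left.2 fun x hx hp => G.irrefl (h x hx x hp)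
  obtain ⟨x0, hx0⟩ : X.Nonempty := card_pos.1 (by omega)
  obtain ⟨p0, hp0⟩ : P.Nonempty := card_pos.1 (by omega)
  have h3 : ∀ u ∈ X ∪ P, dg G (X ∪ P) u = 3 := by
    intro u hu
    rw [dg_union hd]
    rcases mem_union.1 hu with hu | hu
    · rw [dg_eq_card (h u hu), hP, dg_eq_zero.2 fun w hw =>
        no_triangle hG (h u hu p0 hp0).symm (h w hw p0 hp0).symm]
    · rw [dg_eq_card fun w hw => (h w hw u hu).symm, hX, dg_eq_zero.2 fun w hw =>
        no_triangle hG (h x0 hx0 u hu) (h x0 hx0 w hw)]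
  have hc : (X ∪ P).card = 6 := by rw [card_union_of_disjoint hd, hX, hP]
  have hq := sum_dg_quad hG (X ∪ P) 1 2
  have hle := sum_le_sum_of_subset_of_nonneg (subset_univ (X ∪ P))
    (f := fun u => ((dg G (X ∪ P) u : ℤ) - 1) * (dg G (X ∪ P) u - 2)) fun _ _ _ => quad_nonneg _
  have e1 : ∑ u ∈ X ∪ P, (dg G (X ∪ P) u : ℤ) = 18 := by
    rw [sum_congr rfl fun u hu => by rw [h3 u hu], sum_const, hc]; rfl
  have e2 : ∑ u ∈ X ∪ P, ((dg G (X ∪ P) u : ℤ) - 1) * (dg G (X ∪ P) u - 2) = 12 := by
    rw [sum_congr rfl fun u hu => by rw [h3 u hu], sum_const, hc]; rfl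
  rw [hq, e1, e2, hc] at hle
  norm_num at hle

theorem srg77_dg_le (hG : G.IsSRGWith 77 16 0 4) {x y u : V} (hxy : x ≠ y) (hux : u ≠ x)
    (huy : u ≠ y) : dg G (cn G x y) u ≤ 2 := by
  by_contra hc
  obtain ⟨P, hP, h3⟩ := exists_subset_card_eq (s := (cn G x y).filter fun w => G.Adj u w) (n := 3)
    (by rw [dg] at hc; omega)
  refine srg77_no_K33 hG (X := {x, y, u}) (card_eq_three.2 ⟨x, y, u, hxy, hux.symm, huy.symm, rfl⟩)
    h3 fun z hz p hp => ?_
  have := mem_filter.1 (hP hp)
  simp only [mem_insert, mem_singleton] at hz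
  rcases hz with rfl | rfl | rfl
  exacts [(mem_cn.1 this.1).1, (mem_cn.1 this.1).2, this.2]

/-- the vertices far from `x`, `y` and their common neighbours -/
def zset (G : SimpleGraph V) [DecidableRel G.Adj] (x y : V) : Finset V :=
  univ.filter fun u => ¬G.Adj x u ∧ ¬G.Adj y u ∧ dg G (cn G x y) u = 0

theorem mem_zset {x y u : V} :
    u ∈ zset G x y ↔ ¬G.Adj x u ∧ ¬G.Adj y u ∧ dg G (cn G x y) u = 0 := by simp [zset]

theorem dg_cn_pair {n k l m : ℕ} (hG : G.IsSRGWith n k l m) {x y : V} (hxy : x ≠ y)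
    (h : ¬G.Adj x y) {u : V} (hu : u ∈ ({x, y} : Finset V)) : dg G (cn G x y) u = m := by
  rw [← card_cn_nadj hG hxy h]
  refine dg_eq_card fun w hw => ?_
  rcases mem_insert.1 hu with rfl | hu
  · exact (mem_cn.1 hw).1
  · rw [mem_singleton.1 hu]; exact (mem_cn.1 hw).2

theorem card_zset (hG : G.IsSRGWith 77 16 0 4) {x y : V} (hxy : x ≠ y) (h : ¬G.Adj x y) :
    (zset G x y).card = 3 := by
  have hq := sum_dg_quad hG (cn G x y) 1 2
  have h28 := card_nb_union hG hxy h
  rw [sum_dg_cn hG, card_cn_nadj hG hxy h] at hq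
  have he : ∑ u, ((dg G (cn G x y) u : ℤ) - 1) * (dg G (cn G x y) u - 2) =
      ∑ u, (6 * ind {x, y} u + 2 * ind (cn G x x ∪ cn G y y) u + 2 * ind (zset G x y) u) := by
    refine sum_congr rfl fun u _ => ?_
    by_cases a1 : u ∈ ({x, y} : Finset V)
    · have := dg_cn_pair hG hxy h a1
      rw [ind_of_mem a1, ind_of_not_mem (fun e => by rw [dg_cn_of_adj hG e] at this; omega),
        ind_of_not_mem (fun e => by rw [(mem_zset.1 e).2.2] at this; omega), this]
      norm_num
    · rw [ind_of_not_mem a1]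
      by_cases a2 : u ∈ cn G x x ∪ cn G y y
      · rw [ind_of_mem a2, dg_cn_of_adj hG a2, ind_of_not_mem (fun e => by
          have := mem_zset.1 e
          simp [mem_cn, this.1, this.2.1] at a2)]
        norm_num
      · rw [ind_of_not_mem a2]
        simp only [mem_insert, mem_singleton, not_or, mem_union, mem_cn, and_self] at a1 a2
        by_cases a3 : u ∈ zset G x y
        · rw [ind_of_mem a3, (mem_zset.1 a3).2.2]; norm_num
        · rw [ind_of_not_mem a3]
          have h1 := srg77_dg_le hG hxy a1.1 a1.2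
          have h2 : dg G (cn G x y) u ≠ 0 := fun e => a3 (mem_zset.2 ⟨a2.1, a2.2, e⟩)
          generalize dg G (cn G x y) u = a at h1 h2
          interval_cases a <;> simp at h2 ⊢
  rw [he, sum_add_distrib, sum_add_distrib, ← mul_sum, ← mul_sum, ← mul_sum, sum_ind, sum_ind,
    sum_ind, card_pair hxy, show (cn G x x ∪ cn G y y).card = 28 by omega] at hq
  push_cast at hq
  omega

theorem disj_pair_zset (hG : G.IsSRGWith 77 16 0 4) {x y : V} (hxy : x ≠ y) (h : ¬G.Adj x y) :
    Disjoint ({x, y} : Finset V) (zset G x y) := disjoint_left.2 fun u hu hz => by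
  have := dg_cn_pair hG hxy h hu
  rw [(mem_zset.1 hz).2.2] at this
  omega

theorem dg_pair_eq_zero {x y u : V} (h1 : ¬G.Adj x u) (h2 : ¬G.Adj y u) : dg G {x, y} u = 0 :=
  dg_eq_zero.2 fun w hw e => by
    rcases mem_insert.1 hw with rfl | hw
    · exact h1 e.symm
    · rw [mem_singleton.1 hw] at e; exact h2 e.symm

/-- The basic linear relation. -/
theorem srg77_rel (hG : G.IsSRGWith 77 16 0 4) {x y : V} (hxy : x ≠ y) (h : ¬G.Adj x y) (u : V) :
    2 * (dg G (cn G x y) u : ℤ) + 3 * dg G {x, y} u - dg G (zset G x y) u =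
      2 * (2 * ind (cn G x y) u + 3 * ind {x, y} u - ind (zset G x y) u) + 2 := by
  have hA := card_cn_nadj hG hxy h
  have hZ := card_zset hG hxy h
  have hX : ({x, y} : Finset V).card = 2 := card_pair hxy
  have dXZ := disj_pair_zset hG hxy h
  have dAX : ∀ u ∈ cn G x y, u ∉ ({x, y} : Finset V) := fun u hu e => by
    rcases mem_insert.1 e with rfl | e
    · exact G.irrefl (mem_cn.1 hu).1
    · rw [mem_singleton.1 e] at hu; exact G.irrefl (mem_cn.1 hu).2
  have dAZ : ∀ u ∈ cn G x y, u ∉ zset G x y := fun u hu e => (mem_zset.1 e).1 (mem_cn.1 hu).1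
  set A := cn G x y with hA'
  set X : Finset V := {x, y} with hX'
  set Z := zset G x y with hZ'
  let φ : V → ℤ := fun u => 2 * ind A u + 3 * ind X u + (-1) * ind Z u
  have hφ : ∀ u, adjF G φ u = 2 * (dg G A u : ℤ) + 3 * dg G X u + (-1) * dg G Z u := fun u => by
    rw [adjF_lin3, adjF_ind, adjF_ind, adjF_ind]
  have hs : ∀ f : V → ℤ, ∑ u, φ u * f u =
      2 * ∑ u ∈ A, f u + 3 * ∑ u ∈ X, f u - ∑ u ∈ Z, f u := fun f => by
    rw [← sum_ind_mul A, ← sum_ind_mul X, ← sum_ind_mul Z]
    simp only [mul_sum, ← sum_add_distrib, ← sum_sub_distrib]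
    exact sum_congr rfl fun _ _ => by simp only [φ]; ring
  have s1 : ∑ u, φ u = 11 := by
    have := hs fun _ => 1
    simp only [mul_one, sum_const, hA, hX, hZ] at this
    rw [this]; norm_num
  have s2 : ∑ u, φ u * φ u = 37 := by
    have eA : ∀ u ∈ A, φ u = 2 := fun u hu => by
      simp only [φ, ind_of_mem hu, ind_of_not_mem (dAX u hu), ind_of_not_mem (dAZ u hu)]; norm_num
    have eX : ∀ u ∈ X, φ u = 3 := fun u hu => by
      simp only [φ, ind_of_mem hu, ind_of_not_mem (fun e => dAX u e hu),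
        ind_of_not_mem (disjoint_left.1 dXZ hu)]; norm_num
    have eZ : ∀ u ∈ Z, φ u = -1 := fun u hu => by
      simp only [φ, ind_of_mem hu, ind_of_not_mem (fun e => dAZ u e hu),
        ind_of_not_mem (disjoint_right.1 dXZ hu)]; norm_num
    rw [hs, sum_congr rfl eA, sum_congr rfl eX, sum_congr rfl eZ]
    simp only [sum_const, hA, hX, hZ]; norm_num
  have s3 : 96 ≤ ∑ u, φ u * adjF G φ u := by
    have eA : ∀ u ∈ A, adjF G φ u = 6 := fun u hu => by
      have hu' := mem_cn.1 hu
      rw [hφ, dg_cn_of_adj hG (mem_union_left _ (mem_cn.2 ⟨hu'.1, hu'.1⟩)), dg_pair hxy,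
        if_pos hu'.1.symm, if_pos hu'.2.symm, dg_eq_zero.2 fun w hw e =>
          dg_eq_zero.1 (mem_zset.1 hw).2.2 u hu e.symm]
      norm_num
    have eX : ∀ u ∈ X, adjF G φ u = 8 := fun u hu => by
      have h1 : ¬G.Adj x u ∧ ¬G.Adj y u ∧ ∀ w ∈ Z, ¬G.Adj u w := by
        rcases mem_insert.1 hu with rfl | hu
        · exact ⟨G.irrefl, fun e => h e.symm, fun w hw => (mem_zset.1 hw).1⟩
        · rw [mem_singleton.1 hu]; exact ⟨h, G.irrefl, fun w hw => (mem_zset.1 hw).2.1⟩
      rw [hφ, dg_cn_pair hG hxy h hu, dg_pair_eq_zero h1.1 h1.2.1, dg_eq_zero.2 h1.2.2]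
      norm_num
    have eZ : ∑ u ∈ Z, adjF G φ u ≤ 0 := sum_nonpos fun u hu => by
      have hu' := mem_zset.1 hu
      rw [hφ, hu'.2.2, dg_pair_eq_zero hu'.1 hu'.2.1]
      simp
    rw [hs, sum_congr rfl eA, sum_congr rfl eX]
    simp only [sum_const, hA, hX, nsmul_eq_mul]
    push_cast
    linarith
  have := srg_eigen hG φ 2 2 (by rw [s1, s2]; push_cast; linarith) u
  rw [hφ] at this
  simp only [φ] at this
  linarith

/-- the line through two non-adjacent vertices -/
def line (G : SimpleGraph V) [DecidableRel G.Adj] (x y : V) : Finset V := {x, y} ∪ zset G x y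

theorem left_mem_line (x y : V) : x ∈ line G x y := by simp [line]
theorem right_mem_line (x y : V) : y ∈ line G x y := by simp [line]

/-- five pairwise non-adjacent vertices, every other vertex being adjacent to 0 or 2 of them -/
structure IsLine (G : SimpleGraph V) [DecidableRel G.Adj] (L : Finset V) : Prop where
  card : L.card = 5
  coc : Coc G L
  deg : ∀ u ∉ L, dg G L u = 0 ∨ dg G L u = 2

theorem dg_line (hG : G.IsSRGWith 77 16 0 4) {x y : V} (hxy : x ≠ y) (h : ¬G.Adj x y) {u : V}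
    (hu : u ∉ line G x y) (h1 : ¬G.Adj x u) (h2 : ¬G.Adj y u) :
    dg G (line G x y) u + 2 = 2 * dg G (cn G x y) u := by
  have := srg77_rel hG hxy h u
  rw [line, mem_union, not_or] at hu
  rw [ind_of_not_mem hu.1, ind_of_not_mem hu.2, ind_of_not_mem fun e => h1 (mem_cn.1 e).1] at this
  rw [line, dg_union (disj_pair_zset hG hxy h)]
  rw [dg_pair_eq_zero h1 h2] at this ⊢
  omega

theorem isLine_line (hG : G.IsSRGWith 77 16 0 4) {x y : V} (hxy : x ≠ y) (h : ¬G.Adj x y) :
    IsLine G (line G x y) := by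
  have hd := disj_pair_zset hG hxy h
  refine ⟨by rw [line, card_union_of_disjoint hd, card_pair hxy, card_zset hG hxy h], ?_, ?_⟩
  · intro u hu
    rw [← dg_eq_zero, line, dg_union hd]
    have h1 : ¬G.Adj x u ∧ ¬G.Adj y u := by
      rcases mem_union.1 hu with hu | hu
      · rcases mem_insert.1 hu with rfl | hu
        · exact ⟨G.irrefl, fun e => h e.symm⟩
        · rw [mem_singleton.1 hu]; exact ⟨h, G.irrefl⟩
      · exact ⟨(mem_zset.1 hu).1, (mem_zset.1 hu).2.1⟩
    have := srg77_rel hG hxy h u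
    rw [ind_of_not_mem fun e => h1.1 (mem_cn.1 e).1] at this
    rw [dg_pair_eq_zero h1.1 h1.2] at this ⊢
    rcases mem_union.1 hu with hu | hu
    · rw [ind_of_mem hu, ind_of_not_mem (disjoint_left.1 hd hu), dg_cn_pair hG hxy h hu] at this
      omega
    · rw [ind_of_mem hu, ind_of_not_mem (disjoint_right.1 hd hu), (mem_zset.1 hu).2.2] at this
      omega
  · intro u hu
    by_cases h1 : ¬G.Adj x u ∧ ¬G.Adj y u
    · have h2 := dg_line hG hxy h hu h1.1 h1.2
      have h3 := srg77_dg_le hG hxy (u := u) (fun e => hu (by rw [e]; exact left_mem_line x y))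
        (fun e => hu (by rw [e]; exact right_mem_line x y))
      omega
    · have := srg77_rel hG hxy h u
      rw [line, mem_union, not_or] at hu
      rw [ind_of_not_mem hu.1, ind_of_not_mem hu.2, dg_cn_of_adj hG (by
        simp only [mem_union, mem_cn, and_self]; tauto)] at this
      rw [line, dg_union hd]
      simp only [dg_pair hxy, G.adj_comm u] at this ⊢
      by_cases a1 : G.Adj x u <;> by_cases a2 : G.Adj y u
      · rw [ind_of_mem (mem_cn.2 ⟨a1, a2⟩)] at this
        simp only [a1, a2, if_true] at this ⊢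
        omega
      · rw [ind_of_not_mem fun e => a2 (mem_cn.1 e).2] at this
        simp only [a1, a2, if_true, if_false] at this ⊢
        omega
      · rw [ind_of_not_mem fun e => a1 (mem_cn.1 e).1] at this
        simp only [a1, a2, if_true, if_false] at this ⊢
        omega
      · exact absurd ⟨a1, a2⟩ h1

theorem IsLine.eq_line (hG : G.IsSRGWith 77 16 0 4) {L : Finset V} (hL : IsLine G L) {x y : V}
    (hx : x ∈ L) (hy : y ∈ L) (hxy : x ≠ y) : L = line G x y := by
  have h := hL.coc x hx y hy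
  refine eq_of_subset_of_card_le (fun u hu => ?_) (by rw [hL.card, (isLine_line hG hxy h).card])
  rw [line, mem_union]
  by_cases a : u ∈ ({x, y} : Finset V)
  · exact Or.inl a
  refine Or.inr (mem_zset.2 ⟨hL.coc x hx u hu, hL.coc y hy u hu, dg_eq_zero.2 fun w hw e => ?_⟩)
  have hw' := mem_cn.1 hw
  have hwL : w ∉ L := fun e => hL.coc x hx w e hw'.1
  simp only [mem_insert, mem_singleton, not_or] at a
  have : 3 ≤ dg G L w := by
    rw [← card_eq_three.2 ⟨x, y, u, hxy, Ne.symm a.1, Ne.symm a.2, rfl⟩]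
    refine card_le_card fun z hz => ?_
    simp only [mem_insert, mem_singleton] at hz
    rw [mem_filter]
    rcases hz with rfl | rfl | rfl
    exacts [⟨hx, hw'.1.symm⟩, ⟨hy, hw'.2.symm⟩, ⟨hu, e.symm⟩]
  rcases hL.deg w hwL with h | h <;> omega

/-- the vertices off `L` with no neighbour on `L` -/
def far (G : SimpleGraph V) [DecidableRel G.Adj] (L : Finset V) : Finset V :=
  univ.filter fun u => u ∉ L ∧ dg G L u = 0

theorem mem_far {L : Finset V} {u : V} : u ∈ far G L ↔ u ∉ L ∧ dg G L u = 0 := by simp [far]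

theorem IsLine.card_far (hG : G.IsSRGWith 77 16 0 4) {L : Finset V} (hL : IsLine G L) :
    (far G L).card = 32 := by
  have h := sum_dg hG L
  have he : ∑ u, (dg G L u : ℤ) = ∑ u, (2 * ind univ u - 2 * ind L u - 2 * ind (far G L) u) := by
    refine sum_congr rfl fun u _ => ?_
    rw [ind_of_mem (mem_univ _)]
    by_cases a1 : u ∈ L
    · rw [ind_of_mem a1, ind_of_not_mem fun e => (mem_far.1 e).1 a1, hL.coc.dg0 a1]; norm_num
    · rw [ind_of_not_mem a1]
      rcases hL.deg u a1 with a2 | a2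
      · rw [ind_of_mem (mem_far.2 ⟨a1, a2⟩), a2]; norm_num
      · rw [ind_of_not_mem fun e => by rw [(mem_far.1 e).2] at a2; omega, a2]; norm_num
  rw [he, sum_sub_distrib, sum_sub_distrib, ← mul_sum, ← mul_sum, ← mul_sum, sum_ind, sum_ind,
    sum_ind, card_univ, hG.card, hL.card] at h
  push_cast at h
  omega

/-- The line joining a point of `L` with a vertex far from `L` has no edges to `L`. -/
theorem IsLine.no_edge (hG : G.IsSRGWith 77 16 0 4) {L : Finset V} (hL : IsLine G L) {x v : V}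
    (hx : x ∈ L) (hv : v ∈ far G L) : ∀ y ∈ L, ∀ w ∈ line G x v, ¬G.Adj y w := by
  have hv' := mem_far.1 hv
  have hxv : x ≠ v := fun e => hv'.1 (e ▸ hx)
  have hvL : ∀ y ∈ L, ¬G.Adj v y := dg_eq_zero.1 hv'.2
  have h : ¬G.Adj x v := fun e => hvL x hx e.symm
  have hM := isLine_line hG hxv h
  have hnot : ∀ y ∈ L.erase x, y ∉ line G x v := fun y hy e => by
    have hy' := mem_erase.1 hy
    have := (hL.eq_line hG hx hy'.2 hy'.1.symm).trans
      (hM.eq_line hG (left_mem_line x v) e hy'.1.symm).symm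
    exact hv'.1 (this ▸ right_mem_line x v)
  have hrel : ∀ y ∈ L.erase x, dg G (line G x v) y + 2 = 2 * dg G (cn G x v) y := fun y hy =>
    dg_line hG hxv h (hnot y hy) (hL.coc x hx y (mem_erase.1 hy).2) (hvL y (mem_erase.1 hy).2)
  have hsum : ∑ y ∈ L.erase x, dg G (cn G x v) y = 4 := by
    rw [sum_dg_comm, ← card_cn_nadj hG hxv h, card_eq_sum_ones]
    refine sum_congr rfl fun a ha => ?_
    have ha' := (mem_cn.1 ha).1
    have h1 : dg G L a = dg G {x} a + dg G (L.erase x) a := by
      rw [← dg_union (by simp), ← insert_eq, insert_erase hx]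
    rw [dg_eq_card (S := {x}) fun w hw => by rw [mem_singleton.1 hw]; exact ha'.symm,
      card_singleton] at h1
    rcases hL.deg a fun e => hL.coc x hx a e ha' with h2 | h2 <;> omega
  have h0 : ∑ y ∈ L.erase x, dg G (line G x v) y = 0 := by
    have := sum_congr rfl hrel
    rw [sum_add_distrib, ← mul_sum, hsum, sum_const, card_erase_of_mem hx, hL.card] at this
    simpa using this
  intro y hy w hw
  by_cases e : y = x
  · rw [e]; exact hM.coc x (left_mem_line x v) w hw
  · exact dg_eq_zero.1 (sum_eq_zero_iff.1 h0 y (mem_erase.2 ⟨e, hy⟩)) w hw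

/-- the cocliques of size 21 -/
def planes (G : SimpleGraph V) [DecidableRel G.Adj] : Finset (Finset V) :=
  univ.filter fun C => C.card = 21 ∧ ∀ x ∈ C, ∀ y ∈ C, ¬G.Adj x y

theorem mem_planes {C : Finset V} : C ∈ planes G ↔ C.card = 21 ∧ Coc G C := by
  simp only [planes, mem_filter, mem_univ, true_and, Coc]

theorem line_subset_plane (hG : G.IsSRGWith 77 16 0 4) {C : Finset V} (hC : C ∈ planes G)
    {x y : V} (hx : x ∈ C) (hy : y ∈ C) (hxy : x ≠ y) : line G x y ⊆ C := by
  obtain ⟨h21, hc⟩ := mem_planes.1 hC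
  have h := hc x hx y hy
  have s0 : ∑ u ∈ C, (dg G C u : ℤ) = 0 := sum_eq_zero fun u hu => by rw [hc.dg0 hu]; rfl
  have s1 : ∑ u ∈ C, ind C u = 21 := by
    rw [sum_congr rfl fun u hu => ind_of_mem hu]; simp [h21]
  have hoff : ∀ u, (dg G C u : ℤ) = -6 * ind C u + 6 := fun u => by
    rw [← adjF_ind]
    refine srg_eigen hG (ind C) (-6) 6 ?_ u
    simp only [adjF_ind, sum_ind_mul, sum_ind, s0, s1, h21]
    norm_num
  have key : ∀ S : Finset V, ∑ u ∈ C, (dg G S u : ℤ) = -6 * (S ∩ C).card + 6 * S.card ∧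
      ∑ u ∈ C, ind S u = (S ∩ C).card := fun S => by
    have e : ∀ S T : Finset V, ∑ u ∈ S, ind T u = (S ∩ T).card := fun S T => by
      simp [ind, sum_ite_mem]
    refine ⟨?_, by rw [e, inter_comm]⟩
    rw [← Nat.cast_sum, sum_dg_comm, Nat.cast_sum, sum_congr rfl fun u _ => hoff u,
      sum_add_distrib, ← mul_sum, e]
    simp [mul_comm]
  have hs := sum_congr (rfl : C = C) fun u _ => srg77_rel hG hxy h u
  simp only [sum_add_distrib, sum_sub_distrib, ← mul_sum, (key _).1, (key _).2, sum_const, h21,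
    card_cn_nadj hG hxy h, card_zset hG hxy h, card_pair hxy] at hs
  have eA : cn G x y ∩ C = ∅ := eq_empty_of_forall_notMem fun u hu =>
    hc x hx u (mem_inter.1 hu).2 (mem_cn.1 (mem_inter.1 hu).1).1
  have eX : ({x, y} : Finset V) ⊆ C := by simp [insert_subset_iff, hx, hy]
  rw [eA, inter_eq_left.2 eX, card_pair hxy] at hs
  have eZ : zset G x y ∩ C = zset G x y :=
    eq_of_subset_of_card_le inter_subset_left (by
      rw [card_zset hG hxy h]; simp at hs; omega)
  exact union_subset eX (inter_eq_left.1 eZ)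

/-- A line and a vertex far from it lie in a unique plane. -/
theorem IsLine.exists_plane (hG : G.IsSRGWith 77 16 0 4) {L : Finset V} (hL : IsLine G L) {v : V}
    (hv : v ∈ far G L) : ∃! C, C ∈ planes G ∧ L ⊆ C ∧ v ∈ C := by
  have hv' := mem_far.1 hv
  have hxv : ∀ x ∈ L, x ≠ v := fun x hx e => hv'.1 (e ▸ hx)
  have hvL : ∀ x ∈ L, ¬G.Adj x v := fun x hx e => dg_eq_zero.1 hv'.2 x hx e.symm
  have hM : ∀ x ∈ L, IsLine G (line G x v) := fun x hx => isLine_line hG (hxv x hx) (hvL x hx)
  have hne : ∀ x ∈ L, ∀ y ∈ L, x ≠ y → ∀ w ∈ line G x v, w ∈ line G y v → w = v := by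
    intro x hx y hy hxy w h1 h2
    by_contra hw
    have e := ((hM x hx).eq_line hG h1 (right_mem_line x v) hw).trans
      ((hM y hy).eq_line hG h2 (right_mem_line y v) hw).symm
    have := (hL.eq_line hG hx hy hxy).trans
      ((hM x hx).eq_line hG (left_mem_line x v) (e ▸ left_mem_line y v) hxy).symm
    exact hv'.1 (this ▸ right_mem_line x v)
  let P := insert v (L.biUnion fun x => (line G x v).erase v)
  have hP : ∀ w, w ∈ P ↔ ∃ x ∈ L, w ∈ line G x v := fun w => by
    simp only [P, mem_insert, mem_biUnion, mem_erase]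
    constructor
    · rintro (rfl | ⟨x, hx, -, h⟩)
      · obtain ⟨x, hx⟩ : L.Nonempty := card_pos.1 (by rw [hL.card]; norm_num)
        exact ⟨x, hx, right_mem_line _ _⟩
      · exact ⟨x, hx, h⟩
    · rintro ⟨x, hx, h⟩
      by_cases e : w = v
      exacts [Or.inl e, Or.inr ⟨x, hx, e, h⟩]
  have hPc : P.card = 21 := by
    rw [card_insert_of_notMem (by simp), card_biUnion, sum_congr rfl fun x hx => by
      rw [card_erase_of_mem (right_mem_line x v), (hM x hx).card], sum_const, hL.card]
    · rfl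
    · intro x hx y hy hxy
      rw [Function.onFun, disjoint_left]
      intro w h1 h2
      exact (mem_erase.1 h1).1 (hne x hx y hy hxy w (mem_erase.1 h1).2 (mem_erase.1 h2).2)
  have hPcoc : Coc G P := by
    intro a ha b hb
    obtain ⟨x, hx, ha⟩ := (hP a).1 ha
    obtain ⟨y, hy, hb⟩ := (hP b).1 hb
    by_cases hxy : x = y
    · subst hxy; exact (hM x hx).coc a ha b hb
    · have hfar : y ∈ far G (line G x v) := mem_far.2
        ⟨fun e => hxv y hy (hne x hx y hy hxy y e (left_mem_line y v)),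
          dg_eq_zero.2 (hL.no_edge hG hx hv y hy)⟩
      refine (hM x hx).no_edge hG (right_mem_line x v) hfar a ha b ?_
      rw [← (hM y hy).eq_line hG (right_mem_line y v) (left_mem_line y v) (hxv y hy).symm]
      exact hb
  refine ⟨P, ⟨mem_planes.2 ⟨hPc, hPcoc⟩, fun x hx => (hP x).2 ⟨x, hx, left_mem_line x v⟩,
    mem_insert_self _ _⟩, ?_⟩
  rintro C ⟨hC, hLC, hvC⟩
  refine (eq_of_subset_of_card_le (fun w hw => ?_) (by rw [hPc, (mem_planes.1 hC).1])).symm
  obtain ⟨x, hx, hw⟩ := (hP w).1 hw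
  exact line_subset_plane hG hC (hLC hx) hvC (hxv x hx) hw

theorem card_planes_two (hG : G.IsSRGWith 77 16 0 4) {x y : V} (hxy : x ≠ y) (h : ¬G.Adj x y) :
    ((planes G).filter fun C => x ∈ C ∧ y ∈ C).card = 2 := by
  have hL := isLine_line hG hxy h
  have hsub : ∀ C ∈ (planes G).filter fun C => x ∈ C ∧ y ∈ C, line G x y ⊆ C := fun C hC =>
    line_subset_plane hG (mem_filter.1 hC).1 (mem_filter.1 hC).2.1 (mem_filter.1 hC).2.2 hxy
  have := card_mul_eq_card_mul (s := (planes G).filter fun C => x ∈ C ∧ y ∈ C)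
    (t := far G (line G x y)) (fun C v => v ∈ C) (m := 16) (n := 1) (fun C hC => by
      have e : bipartiteAbove (fun C v => v ∈ C) (far G (line G x y)) C = C \ line G x y := by
        ext v
        rw [mem_bipartiteAbove, mem_far, mem_sdiff]
        exact ⟨fun h => ⟨h.2, h.1.1⟩, fun h => ⟨⟨h.2, dg_eq_zero.2 fun w hw =>
          (mem_planes.1 (mem_filter.1 hC).1).2 v h.1 w (hsub C hC hw)⟩, h.1⟩⟩
      rw [e, card_sdiff_of_subset (hsub C hC), (mem_planes.1 (mem_filter.1 hC).1).1, hL.card])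
    (fun v hv => by
      obtain ⟨C, hC, hu⟩ := hL.exists_plane hG hv
      refine card_eq_one.2 ⟨C, eq_singleton_iff_unique_mem.2 ⟨?_, fun D hD => ?_⟩⟩
      · exact (mem_bipartiteBelow _).2 ⟨mem_filter.2 ⟨hC.1, hC.2.1 (left_mem_line x y),
          hC.2.1 (right_mem_line x y)⟩, hC.2.2⟩
      · have := (mem_bipartiteBelow _).1 hD
        exact hu D ⟨(mem_filter.1 this.1).1, hsub D this.1, this.2⟩)
  rw [hL.card_far hG] at this
  omega

theorem card_planes_one (hG : G.IsSRGWith 77 16 0 4) (x : V) :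
    ((planes G).filter fun C => x ∈ C).card = 6 := by
  have := card_mul_eq_card_mul (s := (planes G).filter fun C => x ∈ C)
    (t := (insert x (cn G x x))ᶜ) (fun C v => v ∈ C) (m := 20) (n := 2) (fun C hC => by
      have hC' := mem_planes.1 (mem_filter.1 hC).1
      have e : bipartiteAbove (fun C v => v ∈ C) (insert x (cn G x x))ᶜ C = C.erase x := by
        ext v
        simp only [mem_bipartiteAbove, mem_compl, mem_insert, mem_cn, and_self, not_or, mem_erase]
        exact ⟨fun h => ⟨h.1.1, h.2⟩, fun h => ⟨⟨h.1, hC'.2 x (mem_filter.1 hC).2 v h.2⟩, h.2⟩⟩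
      rw [e, card_erase_of_mem (mem_filter.1 hC).2, hC'.1])
    (fun v hv => by
      simp only [mem_compl, mem_insert, mem_cn, and_self, not_or] at hv
      rw [← card_planes_two hG (Ne.symm hv.1) hv.2, bipartiteBelow, filter_filter])
  rw [card_compl, hG.card, card_insert_of_notMem (by simp [mem_cn]), card_cn_self hG] at this
  omega

theorem card_planes (hG : G.IsSRGWith 77 16 0 4) : (planes G).card = 22 := by
  have := card_mul_eq_card_mul (s := planes G) (t := (univ : Finset V)) (fun C v => v ∈ C)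
    (m := 21) (n := 6) (fun C hC => by
      rw [← (mem_planes.1 hC).1]; congr 1; ext v; simp)
    (fun v _ => card_planes_one hG v)
  rw [card_univ, hG.card] at this
  omega

/-- The graph is the block graph of a Steiner system S(3,6,22). -/
theorem srg77_blockGraph (hG : G.IsSRGWith 77 16 0 4) :
    Fintype.card (planes G) = 22 ∧ ∃ B : Set (Finset (planes G)), IsSteinerSystem 3 6 B ∧
      Nonempty (G ≃g blockGraph B) := by
  have hP : Fintype.card (planes G) = 22 := by rw [Fintype.card_coe, card_planes hG]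
  let inc : V → Finset (planes G) := fun x => univ.filter fun C => x ∈ (C : Finset V)
  have hc : ∀ q : Finset V → Prop, ∀ [DecidablePred q],
      (univ.filter fun C : planes G => q C).card = ((planes G).filter q).card := fun q _ => by
    refine card_bij (fun x _ => x.1) (fun x hx => ?_) (fun _ _ _ _ e => Subtype.ext e)
      fun x hx => ?_
    · exact mem_filter.2 ⟨x.2, (mem_filter.1 hx).2⟩
    · exact ⟨⟨x, (mem_filter.1 hx).1⟩, mem_filter.2 ⟨mem_univ _, (mem_filter.1 hx).2⟩, rfl⟩
  have h6 : ∀ x, (inc x).card = 6 := fun x => by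
    rw [← card_planes_one hG x]; exact hc fun C => x ∈ C
  have hi : ∀ x y, (inc x ∩ inc y).card = ((planes G).filter fun C => x ∈ C ∧ y ∈ C).card :=
    fun x y => by rw [← filter_and]; exact hc fun C => x ∈ C ∧ y ∈ C
  have hadj : ∀ x y, G.Adj x y → (inc x ∩ inc y).card = 0 := fun x y h => by
    rw [hi, card_eq_zero, filter_eq_empty_iff]
    exact fun C hC e => (mem_planes.1 hC).2 x e.1 y e.2 h
  have h2 : ∀ x y, x ≠ y → (inc x ∩ inc y).card ≤ 2 := fun x y hne => by
    by_cases h : G.Adj x y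
    · rw [hadj x y h]; omega
    · rw [hi, card_planes_two hG hne h]
  refine ⟨hP, Set.range inc, steiner_of_packing hP hG.card h6 h2,
    ⟨⟨Equiv.ofInjective inc (packing_injective h6 h2), fun {x y} => ?_⟩⟩⟩
  rw [blockGraph, SimpleGraph.fromRel_adj, ne_eq, EmbeddingLike.apply_eq_iff_eq]
  simp only [Equiv.ofInjective_apply, disjoint_iff_inter_eq_empty, ← card_eq_zero,
    inter_comm (inc y), or_self]
  refine ⟨fun h => ?_, fun h => ⟨h.ne, hadj x y h⟩⟩
  by_contra hc
  have := h.2
  rw [hi, card_planes_two hG h.1 hc] at this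
  omega

end H17
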